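import Cfsg.Agent.MinParFF.QdPush.Setup

/-!
The fixed points of the involution in the core commute with each other as soon as the commutators of
them are moved by no automorphism of odd order inverted by the involution.
-/

set_option autoImplicit false
set_option linter.style.haveILetI false
set_option linter.unusedSectionVars false

open Cfsg
open scoped MatrixGroups commutatorElement

namespace CfsgLib.MinParFF.QdPush

variable {F : Type} [Field F] [Fintype F] {p : ℕ} [hp : Fact p.Prime] [CharP F p]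

theorem exists_param (h5 : p = 5) (h25 : 25 ≤ Fintype.card F) :
    ∃ x y : F, x ≠ 0 ∧ y ≠ 0 ∧ x ^ 2 = 1 + y ^ 2 ∧ y ^ 4 + y ^ 2 + 1 ≠ 0 := by
  classical
  let P : Polynomial F := (Polynomial.X ^ 4 - 1) * Polynomial.X *
    ((Polynomial.X ^ 2 - 1) ^ 4 + 4 * Polynomial.X ^ 2 * (Polynomial.X ^ 2 - 1) ^ 2 + 16 * Polynomial.X ^ 4)
  have hdeg : P.natDegree = 13 := by
    simp only [P]
    compute_degree!
  obtain ⟨s, hs⟩ : ∃ s, P.eval s ≠ 0 := by
    by_contra hno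
    push Not at hno
    have hP : P ≠ 0 := fun h0 => by simp [h0] at hdeg
    apply hP
    refine Polynomial.eq_zero_of_natDegree_lt_card_of_eval_eq_zero P (ι := F) Function.injective_id hno ?_
    rw [hdeg]
    omega
  simp only [P, Polynomial.eval_mul, Polynomial.eval_sub, Polynomial.eval_add, Polynomial.eval_pow,
    Polynomial.eval_X, Polynomial.eval_one, Polynomial.eval_ofNat, mul_ne_zero_iff] at hs
  obtain ⟨⟨h4, hs0⟩, h8⟩ := hs
  have h2 : (2 : F) ≠ 0 := Ring.two_ne_zero ((ringChar.eq F p).symm ▸ by omega)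
  refine ⟨(s ^ 2 + 1) / (2 * s), (s ^ 2 - 1) / (2 * s), ?_, ?_, ?_, ?_⟩
  · rw [div_ne_zero_iff]
    exact ⟨fun h0 => h4 (by linear_combination (s ^ 2 - 1) * h0), mul_ne_zero h2 hs0⟩
  · rw [div_ne_zero_iff]
    exact ⟨fun h0 => h4 (by linear_combination (s ^ 2 + 1) * h0), mul_ne_zero h2 hs0⟩
  · field_simp
    ring
  · intro h0
    apply h8
    field_simp at h0
    linear_combination h0

/-- An alternating biadditive map invariant under the squares of the torus vanishes. -/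
theorem bilin_zero {M : Type*} [AddCommGroup M] (hp5 : 5 ≤ p) (hM : ∀ m : M, p • m = 0)
    (B : F → F → M) (hl : ∀ a a' b, B (a + a') b = B a b + B a' b)
    (hr : ∀ a b b', B a (b + b') = B a b + B a b') (halt : ∀ a, B a a = 0)
    (hinv : ∀ k : F, k ≠ 0 → ∀ a b, B (k ^ 2 * a) (k ^ 2 * b) = B a b) : ∀ a b, B a b = 0 := by
  intro a b
  let B' : F →+ F →+ M := AddMonoidHom.mk' (fun a => AddMonoidHom.mk' (B a) (hr a))
    fun a a' => AddMonoidHom.ext fun b => hl a a' b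
  have hB : ∀ a b, B' a b = B a b := fun a b => rfl
  have hn : ∀ (i j : ℕ) (a b : F), B (i * a) (j * b) = (i * j) • B a b := fun i j a b => by
    rw [← hB, ← nsmul_eq_mul, ← nsmul_eq_mul, map_nsmul, map_nsmul, AddMonoidHom.coe_smul, Pi.smul_apply, ← mul_nsmul',
      hB, mul_comm]
  by_cases h7 : p = 5
  swap
  · have h1 := hinv 2 (Ring.two_ne_zero ((ringChar.eq F p).symm ▸ by omega)) a b
    rw [show (2 : F) ^ 2 = ((4 : ℕ) : F) by norm_num, hn] at h1
    have h15 : (15 : ℕ) • B a b = 0 := by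
      rw [show 4 * 4 = 15 + 1 by norm_num, add_nsmul, one_nsmul] at h1
      exact left_eq_add.1 (by rw [add_comm]; exact h1.symm)
    have hd := Nat.dvd_gcd (addOrderOf_dvd_of_nsmul_eq_zero h15) (addOrderOf_dvd_of_nsmul_eq_zero (hM (B a b)))
    have hc : Nat.Coprime 15 p := by
      rw [show (15 : ℕ) = 3 * 5 by norm_num]
      exact Nat.Coprime.mul_left ((Nat.coprime_primes Nat.prime_three hp.1).2 (by omega))
        ((Nat.coprime_primes Nat.prime_five hp.1).2 (Ne.symm h7))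
    rw [hc.gcd_eq_one, Nat.dvd_one, AddMonoid.addOrderOf_eq_one_iff] at hd
    exact hd
  obtain ⟨n, -, hn'⟩ := FiniteField.card F p
  by_cases hq : Fintype.card F = 5
  · have hall : ∀ x : F, ∃ i : ℕ, (i : F) = x := by
      have hbij : Function.Bijective (fun i : Fin 5 => ((i : ℕ) : F)) := by
        rw [Fintype.bijective_iff_injective_and_card]
        refine ⟨fun i j e => Fin.ext ?_, by simp [hq]⟩
        haveI : CharP F 5 := h7 ▸ inferInstance
        exact CharP.natCast_injOn_Iio F 5 i.2 j.2 e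
      intro x
      obtain ⟨i, hi⟩ := hbij.2 x
      exact ⟨i, hi⟩
    obtain ⟨i, rfl⟩ := hall a
    obtain ⟨j, rfl⟩ := hall b
    have := hn i j 1 1
    rw [mul_one, mul_one, halt, nsmul_zero] at this
    exact this
  have h25 : 25 ≤ Fintype.card F := by
    rw [hn', h7] at hq ⊢
    have hn2 : 2 ≤ (n : ℕ) := by
      rcases Nat.lt_or_ge (n : ℕ) 2 with h | h
      · have := n.pos
        rw [show (n : ℕ) = 1 by omega, pow_one] at hq
        exact absurd rfl hq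
      · exact h
    calc 25 = 5 ^ 2 := by norm_num
      _ ≤ 5 ^ (n : ℕ) := Nat.pow_le_pow_right (by norm_num) hn2
  obtain ⟨x, y, hx, hy, hxy, hd⟩ := exists_param (p := p) h7 h25
  have hsq : ∀ k : F, k ≠ 0 → ∀ a b, B (k ^ 2 * a) b = B a (b / k ^ 2) := fun k hk a b => by
    rw [← hinv k hk a (b / k ^ 2), mul_div_cancel₀ b (pow_ne_zero 2 hk)]
  have key : ∀ a b, B a (b * (1 / x ^ 2 - 1 - 1 / y ^ 2)) = 0 := by
    intro a b
    have h1 : B (x ^ 2 * a) b = B a b + B (y ^ 2 * a) b := by rw [← hl, hxy]; ring_nf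
    rw [hsq x hx, hsq y hy] at h1
    rw [show b * (1 / x ^ 2 - 1 - 1 / y ^ 2) = b / x ^ 2 + -(b + b / y ^ 2) by ring, hr]
    have hneg : B a (-(b + b / y ^ 2)) = -B a (b + b / y ^ 2) := map_neg (B' a) _
    rw [hneg, hr, h1, add_neg_cancel]
  have hne : (1 / x ^ 2 - 1 - 1 / y ^ 2 : F) ≠ 0 := by
    intro h0
    apply hd
    field_simp at h0
    rw [hxy] at h0
    linear_combination -h0
  have := key a (b / (1 / x ^ 2 - 1 - 1 / y ^ 2))
  rwa [div_mul_cancel₀ b hne] at this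

variable {G : Type*} [Group G] [Finite G] {S : Subgroup G} (D : Data p F S)

namespace Data

include D

/-- The upper entry. -/
def u (g : G) : F := (D.π g).1 0 1

theorem upperS {s : G} (hs : s ∈ S) : (D.π s).1 = !![1, D.u s; 0, 1] := by
  obtain ⟨h1, h2, h3⟩ := (D.S_iff s).1 hs
  ext i j
  fin_cases i <;> fin_cases j <;> simp [u, h1, h2, h3]

theorem u_mul {a b : G} (ha : a ∈ S) (hb : b ∈ S) : D.u (a * b) = D.u a + D.u b := by
  have := D.upperS (S.mul_mem ha hb)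
  rw [map_mul, Matrix.SpecialLinearGroup.coe_mul, D.upperS ha, D.upperS hb] at this
  have h2 := congrFun (congrFun this 0) 1
  simp [Matrix.mul_apply, Fin.sum_univ_two] at h2
  rw [← h2, add_comm]

theorem mem_S_of_ker {g : G} (hg : D.π g = 1) : g ∈ S := (D.S_iff g).2 (hg ▸ one_mem _)

theorem u_ker {g : G} (hg : D.π g = 1) : D.u g = 0 := by simp [u, hg]

theorem u_inv {a : G} (ha : a ∈ S) : D.u a⁻¹ = -D.u a := by
  refine eq_neg_of_add_eq_zero_left ?_
  rw [← D.u_mul (S.inv_mem ha) ha, inv_mul_cancel, D.u_ker (map_one _)]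

theorem ker_of_u {s : G} (hs : s ∈ S) (h0 : D.u s = 0) : D.π s = 1 := by
  refine Subtype.ext ?_
  rw [D.upperS hs, h0, Matrix.SpecialLinearGroup.coe_one]
  ext i j
  fin_cases i <;> fin_cases j <;> simp

theorem V_le_S {v : G} (hv : v ∈ D.V) : v ∈ S := D.mem_S_of_ker (D.V_ker v hv)

theorem V_normal : D.V.Normal := ⟨fun v hv g => by
  obtain ⟨w, hw, -⟩ := D.ψ_conj g ⟨v, hv⟩
  rw [show g * v * g⁻¹ = (w : G) from hw.symm]
  exact w.2⟩

theorem ψ_one : D.ψ 1 = 0 := by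
  have := D.ψ_mul 1 1
  rw [mul_one] at this
  exact left_eq_add.1 this

theorem ψ_inv (v : D.V) : D.ψ v⁻¹ = -D.ψ v := by
  refine eq_neg_of_add_eq_zero_left ?_
  rw [← D.ψ_mul, inv_mul_cancel, D.ψ_one]

theorem comm_of_fixed {g : G} {v : D.V} (h : (D.π g).1.mulVec (D.ψ v) = D.ψ v) :
    g * v = v * g := by
  obtain ⟨w, hw, hwe⟩ := D.ψ_conj g v
  rw [h] at hwe
  rw [D.ψ_bij.1 hwe] at hw
  exact mul_inv_eq_iff_eq_mul.1 hw.symm

theorem ker_comm {g : G} (hg : D.π g = 1) {v : G} (hv : v ∈ D.V) : g * v = v * g :=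
  D.comm_of_fixed (v := ⟨v, hv⟩) (by rw [hg, Matrix.SpecialLinearGroup.coe_one, Matrix.one_mulVec])

theorem t_V {v : G} (hv : v ∈ D.V) : D.t * v * D.t⁻¹ = v⁻¹ := by
  obtain ⟨w, hw, hwe⟩ := D.ψ_conj D.t ⟨v, hv⟩
  rw [D.π_t, Matrix.SpecialLinearGroup.coe_neg, Matrix.SpecialLinearGroup.coe_one, Matrix.neg_mulVec,
    Matrix.one_mulVec, ← D.ψ_inv] at hwe
  rw [D.ψ_bij.1 hwe] at hw
  exact hw.symm

theorem t_inv : D.t⁻¹ = D.t := inv_eq_of_mul_eq_one_right D.t_sq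

theorem conj_t_mem {s : G} (hs : s ∈ S) : D.t * s * D.t⁻¹ ∈ S := by
  rw [D.S_iff, map_mul, map_mul, map_inv, D.π_t,
    show (-1 : SL(2, F)) * D.π s * (-1)⁻¹ = D.π s by simp]
  exact (D.S_iff s).1 hs

/-- The centre of `S` inside `G`. -/
def Z (_D : Data p F S) : Subgroup G := S ⊓ Subgroup.centralizer (S : Set G)

theorem mem_Z {z : G} : z ∈ D.Z ↔ z ∈ S ∧ ∀ s ∈ S, s * z = z * s := by
  rw [Z, Subgroup.mem_inf, Subgroup.mem_centralizer_iff]
  rfl

theorem comm_mem_Z {x y : G} (hx : x ∈ S) (hy : y ∈ S) : ⁅x, y⁆ ∈ D.Z :=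
  (D.mem_Z).2 ⟨S.mul_mem (S.mul_mem (S.mul_mem hx hy) (S.inv_mem hx)) (S.inv_mem hy),
    fun s hs => (D.class2 x hx y hy s hs).symm⟩

theorem snd_zero_of_comm {v : D.V} {s : G} (hs : s ∈ S) (hu : D.u s ≠ 0) (h : s * v = v * s) :
    D.ψ v 1 = 0 := by
  obtain ⟨w, hw, hwe⟩ := D.ψ_conj s v
  rw [h, mul_inv_cancel_right] at hw
  rw [show w = v from Subtype.ext hw, D.upperS hs] at hwe
  have := congrFun hwe 0
  simp [Matrix.mulVec, dotProduct, Fin.sum_univ_two] at this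
  exact this.resolve_left hu

theorem mem_Z_of_snd {v : D.V} (h : D.ψ v 1 = 0) : (v : G) ∈ D.Z := by
  refine (D.mem_Z).2 ⟨D.V_le_S v.2, fun s hs => D.comm_of_fixed ?_⟩
  rw [D.upperS hs]
  funext i
  fin_cases i <;> simp [Matrix.mulVec, dotProduct, Fin.sum_univ_two, h]

theorem u_Z {z : G} (hz : z ∈ D.Z) : D.u z = 0 := by
  by_contra hu
  obtain ⟨v, hv⟩ := D.ψ_bij.2 ![0, 1]
  have h1 := D.snd_zero_of_comm ((D.mem_Z).1 hz).1 hu (((D.mem_Z).1 hz).2 v (D.V_le_S v.2)).symm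
  rw [hv] at h1
  simp at h1

theorem split {s : G} (hs : s ∈ S) : ∃ v ∈ D.V, ∃ c ∈ S, c * D.t = D.t * c ∧ s = v * c := by
  obtain ⟨v, hv, c, hc, rfl⟩ := D.gen s
  exact ⟨v, hv, c, by simpa using S.mul_mem (S.inv_mem (D.V_le_S hv)) hs, hc, rfl⟩

theorem fix_conj {c : G} (hc : c * D.t = D.t * c) : D.t * c * D.t⁻¹ = c := by
  rw [← hc, mul_inv_cancel_right]

theorem eq_one_of_sq' (hp2 : p ≠ 2) {x : G} (hx : x ∈ S) (h : x * x = 1) : x = 1 :=
  eq_one_of_sq (p := p) hp2 (D.exp x hx) h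

/-- An inverted element of `S` lies in `V`. -/
theorem mem_V_of_inverted (hp2 : p ≠ 2) {s : G} (hs : s ∈ S) (h : D.t * s * D.t⁻¹ = s⁻¹) : s ∈ D.V := by
  obtain ⟨v, hv, c, hcS, hc, rfl⟩ := D.split hs
  rw [show D.t * (v * c) * D.t⁻¹ = (D.t * v * D.t⁻¹) * (D.t * c * D.t⁻¹) by group, D.t_V hv,
    D.fix_conj hc, mul_inv_rev] at h
  have hu : D.u c = 0 := by
    have := congrArg D.u h
    rw [D.u_mul (S.inv_mem (D.V_le_S hv)) hcS, D.u_mul (S.inv_mem hcS) (S.inv_mem (D.V_le_S hv)),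
      D.u_inv (D.V_le_S hv), D.u_inv hcS, D.u_ker (D.V_ker v hv), neg_zero, zero_add, add_zero,
      eq_neg_iff_add_eq_zero, ← two_mul] at this
    exact (mul_eq_zero.1 this).resolve_left (Ring.two_ne_zero ((ringChar.eq F p).symm ▸ hp2))
  have hcv : Commute c v := D.ker_comm (D.ker_of_u hcS hu) hv
  rw [← hcv.inv_right.eq] at h
  rw [D.eq_one_of_sq' hp2 hcS (mul_eq_one_iff_eq_inv.2 (mul_right_cancel h)), mul_one]
  exact hv

theorem u_conj {k : F} (hk : k ≠ 0) {g x : G} (hg : (D.π g).1 = !![k, 0; 0, k⁻¹]) (hx : x ∈ S) :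
    g * x * g⁻¹ ∈ S ∧ D.u (g * x * g⁻¹) = k ^ 2 * D.u x := by
  have h : (D.π (g * x * g⁻¹)).1 = !![1, k ^ 2 * D.u x; 0, 1] := by
    rw [map_mul, map_mul, map_inv, Matrix.SpecialLinearGroup.coe_mul, Matrix.SpecialLinearGroup.coe_mul,
      Matrix.SpecialLinearGroup.coe_inv, hg, D.upperS hx, Matrix.adjugate_fin_two]
    ext i j
    fin_cases i <;> fin_cases j <;> simp [hk] <;> ring
  refine ⟨(D.S_iff _).2 ⟨?_, ?_, ?_⟩, ?_⟩ <;> (try simp only [u]) <;> rw [h] <;> simp [u]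

/-- Elements centralising the fixed points in the kernel. -/
def cover : Subgroup G :=
  Subgroup.centralizer {D.t} ⊓ Subgroup.centralizer {e : G | D.π e = 1 ∧ e * D.t = D.t * e}

theorem mem_cover {g : G} : g ∈ D.cover ↔
    g * D.t = D.t * g ∧ ∀ e, D.π e = 1 → e * D.t = D.t * e → g * e = e * g := by
  rw [cover, Subgroup.mem_inf, Subgroup.mem_centralizer_singleton_iff, Subgroup.mem_centralizer_iff]
  exact and_congr_right fun _ => ⟨fun h e h1 h2 => (h e ⟨h1, h2⟩).symm, fun h e he => (h e he.1 he.2).symm⟩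

theorem cover_map (h5 : 5 ≤ Fintype.card F) : D.cover.map D.π = ⊤ := by
  haveI hn : (D.cover.map D.π).Normal := by
    refine ⟨?_⟩
    rintro _ ⟨k, hk, rfl⟩ γ
    obtain ⟨g, rfl⟩ := D.surj γ
    obtain ⟨v, hv, c, hc, rfl⟩ := D.gen g
    refine ⟨c * k * c⁻¹, ?_, by simp [D.V_ker v hv]⟩
    obtain ⟨hk1, hk2⟩ := (D.mem_cover).1 hk
    have hc' : c⁻¹ * D.t = D.t * c⁻¹ := ((show Commute c D.t from hc).inv_left).eq
    refine (D.mem_cover).2 ⟨(((show Commute c D.t from hc).mul_left (show Commute k D.t from hk1)).mul_left hc').eq,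
      fun e he het => ?_⟩
    have h1 : D.π (c⁻¹ * e * c) = 1 := by simp [he]
    have h2 : (c⁻¹ * e * c) * D.t = D.t * (c⁻¹ * e * c) :=
      (((show Commute c⁻¹ D.t from hc').mul_left (show Commute e D.t from het)).mul_left (show Commute c D.t from hc)).eq
    calc c * k * c⁻¹ * e = c * (k * (c⁻¹ * e * c)) * c⁻¹ := by group
      _ = c * (c⁻¹ * e * c * k) * c⁻¹ := by rw [hk2 _ h1 h2]
      _ = e * (c * k * c⁻¹) := by group
  obtain ⟨k, hk0, hk2⟩ := CfsgLib.Classical.Linear.exists_sq_ne_one_of_four_le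
    (F := F) (by rw [Nat.card_eq_fintype_card]; omega)
  rcases CfsgLib.Classical.Linear.normal_le_center_or_eq_top (commutator_sl (by omega)) (D.cover.map D.π)
    with hc | ht
  swap
  · exact ht
  exfalso
  obtain ⟨A, hA⟩ : ∃ A : SL(2, F), A.1 = !![k, 0; 0, k⁻¹] := ⟨⟨!![k, 0; 0, k⁻¹], by simp [hk0]⟩, rfl⟩
  obtain ⟨g, hg⟩ := D.surj A
  obtain ⟨v, hv, c, hct, rfl⟩ := D.gen g
  rw [map_mul, D.V_ker v hv, one_mul] at hg
  obtain ⟨a, m, hm, hord⟩ := Nat.exists_eq_pow_mul_and_not_dvd (orderOf_pos c).ne' p hp.1.ne_one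
  have hcop : (orderOf (c ^ p ^ a)).Coprime p := by
    refine Nat.Coprime.coprime_dvd_left ?_ ((hp.1.coprime_iff_not_dvd.2 hm).symm)
    exact orderOf_dvd_of_pow_eq_one (by rw [← pow_mul, ← hord, pow_orderOf_eq_one])
  have hmem : c ^ p ^ a ∈ D.cover := (D.mem_cover).2
    ⟨((show Commute c D.t from hct).pow_left _).eq, D.cent _ ((show Commute c D.t from hct).pow_left _).eq hcop⟩
  have h1 := sq_eq_one_of_mem_center (hc (Subgroup.mem_map_of_mem _ hmem))
  rw [map_pow, hg, ← pow_mul] at h1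
  have hpow : ∀ i : ℕ, (A ^ i).1 0 0 = k ^ i := by
    intro i
    induction i with
    | zero => simp
    | succ i ih =>
      rw [pow_succ, Matrix.SpecialLinearGroup.coe_mul, Matrix.mul_apply, Fin.sum_univ_two, ih, pow_succ, hA]
      simp
  have h2 := congrArg (fun z : SL(2, F) => z.1 0 0) h1
  simp only [hpow, Matrix.SpecialLinearGroup.coe_one, Matrix.one_apply_eq] at h2
  rw [mul_comm, pow_mul] at h2
  apply hk2
  have h3 : (k ^ 2 - 1) ^ p ^ a = 0 := by rw [sub_pow_char_pow, h2, one_pow, sub_self]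
  exact sub_eq_zero.1 (eq_zero_of_pow_eq_zero h3)

theorem exists_cover (h5 : 5 ≤ Fintype.card F) (A : SL(2, F)) : ∃ g ∈ D.cover, D.π g = A :=
  Subgroup.mem_map.1 ((D.cover_map h5) ▸ Subgroup.mem_top A)

theorem exists_X (h5 : 5 ≤ Fintype.card F) (a : F) : ∃ x ∈ D.cover, x ∈ S ∧ D.u x = a := by
  obtain ⟨x, hx, hπ⟩ := D.exists_cover h5 ⟨!![1, a; 0, 1], by simp⟩
  refine ⟨x, hx, (D.S_iff x).2 (by rw [hπ]; exact ⟨by simp, by simp, by simp⟩), by simp [u, hπ]⟩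

theorem comm_cl_left {x x' y : G} (hx : x ∈ S) (hx' : x' ∈ S) (hy : y ∈ S) :
    ⁅x * x', y⁆ = ⁅x, y⁆ * ⁅x', y⁆ := by
  have hc : x * ⁅x', y⁆ = ⁅x', y⁆ * x := (D.class2 x' hx' y hy x hx).symm
  calc ⁅x * x', y⁆ = x * ⁅x', y⁆ * y * x⁻¹ * y⁻¹ := by simp only [commutatorElement_def]; group
    _ = ⁅x', y⁆ * ⁅x, y⁆ := by rw [hc]; simp only [commutatorElement_def]; group
    _ = ⁅x, y⁆ * ⁅x', y⁆ := by
      rw [D.class2 x' hx' y hy _ ((D.mem_Z).1 (D.comm_mem_Z hx hy)).1]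

theorem comm_cl_right {x y y' : G} (hx : x ∈ S) (hy : y ∈ S) (hy' : y' ∈ S) :
    ⁅x, y * y'⁆ = ⁅x, y⁆ * ⁅x, y'⁆ := by
  calc ⁅x, y * y'⁆ = ⁅y * y', x⁆⁻¹ := (commutatorElement_inv _ _).symm
    _ = ⁅x, y'⁆ * ⁅x, y⁆ := by
      rw [D.comm_cl_left hy hy' hx, mul_inv_rev, commutatorElement_inv, commutatorElement_inv]
    _ = ⁅x, y⁆ * ⁅x, y'⁆ := by
      rw [D.class2 x hx y' hy' _ ((D.mem_Z).1 (D.comm_mem_Z hx hy)).1]

/-- The elements of `cover` in `S` commute with each other. -/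
theorem X_comm (hp5 : 5 ≤ p) {x y : G} (hx : x ∈ D.cover) (hxS : x ∈ S)
    (hy : y ∈ D.cover) (hyS : y ∈ S) : x * y = y * x := by
  have hq : 5 ≤ Fintype.card F := by
    obtain ⟨n, -, hn⟩ := FiniteField.card F p
    rw [hn]
    exact hp5.trans (Nat.le_self_pow n.2.ne' p)
  choose l hl hlS hlu using D.exists_X hq
  letI : CommGroup D.Z :=
    { (inferInstance : Group D.Z) with
      mul_comm := fun a b => Subtype.ext (((D.mem_Z).1 b.2).2 a ((D.mem_Z).1 a.2).1) }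
  -- the commutator only depends on the upper entries
  have hdep : ∀ x y : G, x ∈ D.cover → x ∈ S → y ∈ D.cover → y ∈ S → ⁅x, y⁆ = ⁅l (D.u x), l (D.u y)⁆ := by
    have one : ∀ x y : G, x ∈ D.cover → x ∈ S → y ∈ D.cover → y ∈ S → ⁅x, y⁆ = ⁅l (D.u x), y⁆ := by
      intro x y hx hxS hy hyS
      set z := (l (D.u x))⁻¹ * x with hz
      have hzc : z ∈ D.cover := mul_mem (inv_mem (hl _)) hx
      have hzS : z ∈ S := mul_mem (inv_mem (hlS _)) hxS
      have hz1 : D.π z = 1 := D.ker_of_u hzS (by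
        rw [hz, D.u_mul (inv_mem (hlS _)) hxS, D.u_inv (hlS _), hlu, neg_add_cancel])
      have hzy : ⁅z, y⁆ = 1 := commutatorElement_eq_one_iff_mul_comm.2
        (((D.mem_cover).1 hy).2 z hz1 ((D.mem_cover).1 hzc).1).symm
      calc ⁅x, y⁆ = ⁅l (D.u x) * z, y⁆ := by rw [hz, mul_inv_cancel_left]
        _ = _ := by rw [D.comm_cl_left (hlS _) hzS hyS, hzy, mul_one]
    intro x y hx hxS hy hyS
    rw [one x y hx hxS hy hyS, ← commutatorElement_inv, one y _ hy hyS (hl _) (hlS _),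
      commutatorElement_inv]
  let B : F → F → Additive D.Z := fun a b => Additive.ofMul ⟨⁅l a, l b⁆, D.comm_mem_Z (hlS a) (hlS b)⟩
  have hB0 := bilin_zero (p := p) hp5 (M := Additive D.Z) (fun m => by
      apply Additive.toMul.injective
      rw [toMul_nsmul, toMul_zero]
      exact Subtype.ext (D.exp _ ((D.mem_Z).1 (Additive.toMul m).2).1)) B
    (fun a a' b => congrArg Additive.ofMul (Subtype.ext (by
      show ⁅l (a + a'), l b⁆ = ⁅l a, l b⁆ * ⁅l a', l b⁆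
      rw [← D.comm_cl_left (hlS a) (hlS a') (hlS b),
        hdep (l a * l a') (l b) (mul_mem (hl a) (hl a')) (mul_mem (hlS a) (hlS a')) (hl b) (hlS b),
        D.u_mul (hlS a) (hlS a'), hlu, hlu, hlu])))
    (fun a b b' => congrArg Additive.ofMul (Subtype.ext (by
      show ⁅l a, l (b + b')⁆ = ⁅l a, l b⁆ * ⁅l a, l b'⁆
      rw [← D.comm_cl_right (hlS a) (hlS b) (hlS b'),
        hdep (l a) (l b * l b') (hl a) (hlS a) (mul_mem (hl b) (hl b')) (mul_mem (hlS b) (hlS b')),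
        D.u_mul (hlS b) (hlS b'), hlu, hlu, hlu])))
    (fun a => congrArg Additive.ofMul (Subtype.ext (commutatorElement_self (l a))))
    (fun k hk a b => congrArg Additive.ofMul (Subtype.ext (by
      show ⁅l (k ^ 2 * a), l (k ^ 2 * b)⁆ = ⁅l a, l b⁆
      obtain ⟨g, hg, hπg⟩ := D.exists_cover hq ⟨!![k, 0; 0, k⁻¹], by simp [hk]⟩
      obtain ⟨h1, h1u⟩ := D.u_conj hk (congrArg Subtype.val hπg) (hlS a)
      obtain ⟨h2, h2u⟩ := D.u_conj hk (congrArg Subtype.val hπg) (hlS b)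
      have h3 := hdep _ _ (mul_mem (mul_mem hg (hl a)) (inv_mem hg)) h1
        (mul_mem (mul_mem hg (hl b)) (inv_mem hg)) h2
      rw [h1u, h2u, hlu, hlu] at h3
      rw [← h3]
      have hK : D.π ⁅l a, l b⁆ = 1 := D.ker_of_u ((D.mem_Z).1 (D.comm_mem_Z (hlS a) (hlS b))).1
        (D.u_Z (D.comm_mem_Z (hlS a) (hlS b)))
      have ht : ⁅l a, l b⁆ * D.t = D.t * ⁅l a, l b⁆ := by
        have hm : ⁅l a, l b⁆ ∈ D.cover :=
          mul_mem (mul_mem (mul_mem (hl a) (hl b)) (inv_mem (hl a))) (inv_mem (hl b))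
        exact ((D.mem_cover).1 hm).1
      have := ((D.mem_cover).1 hg).2 _ hK ht
      calc ⁅g * l a * g⁻¹, g * l b * g⁻¹⁆ = g * ⁅l a, l b⁆ * g⁻¹ := by
            simp only [commutatorElement_def]; group
        _ = _ := by rw [this, mul_inv_cancel_right])))
    (D.u x) (D.u y)
  rw [← commutatorElement_eq_one_iff_mul_comm, hdep x y hx hxS hy hyS]
  exact congrArg (fun m => ((Additive.toMul m : D.Z) : G)) hB0

theorem exists_X_mul (h5 : 5 ≤ Fintype.card F) {c : G} (hcS : c ∈ S) (hc : c * D.t = D.t * c) :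
    ∃ x ∈ D.cover, x ∈ S ∧ ∃ e, D.π e = 1 ∧ e * D.t = D.t * e ∧ c = x * e := by
  obtain ⟨x, hx, hxS, hxu⟩ := D.exists_X h5 (D.u c)
  refine ⟨x, hx, hxS, x⁻¹ * c, ?_, ?_, (mul_inv_cancel_left x c).symm⟩
  · refine D.ker_of_u (mul_mem (inv_mem hxS) hcS) ?_
    rw [D.u_mul (inv_mem hxS) hcS, D.u_inv hxS, hxu, neg_add_cancel]
  · exact ((show Commute x D.t from ((D.mem_cover).1 hx).1).inv_left.mul_left (show Commute c D.t from hc)).eq

theorem X_central (hp5 : 5 ≤ p) {x c : G} (hx : x ∈ D.cover) (hxS : x ∈ S) (hcS : c ∈ S)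
    (hc : c * D.t = D.t * c) : x * c = c * x := by
  have hq : 5 ≤ Fintype.card F := by
    obtain ⟨n, -, hn⟩ := FiniteField.card F p
    rw [hn]
    exact hp5.trans (Nat.le_self_pow n.2.ne' p)
  obtain ⟨y, hy, hyS, e, he, het, rfl⟩ := D.exists_X_mul hq hcS hc
  exact (Commute.mul_right (D.X_comm hp5 hx hxS hy hyS) (((D.mem_cover).1 hx).2 e he het)).eq

end Data

end CfsgLib.MinParFF.QdPush
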