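import Cfsg.Agent.MinParFF.QdPush.Class2
import Cfsg.Agent.S2762
import Cfsg.Agent.Eq.Def_Transfer
import Cfsg.Agent.Eq.Def_TwoFusion
import Cfsg.Prelude.Def_TwoFusion
import Mathlib.GroupTheory.Transfer

/-!
When the fixed points of the involution in the core are abelian the group is `Qd` times an elementary
abelian group.
-/

set_option autoImplicit false
set_option linter.style.haveILetI false
set_option linter.unusedSectionVars false

open Cfsg
open scoped MatrixGroups commutatorElement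

namespace CfsgLib.MinParFF.QdPush.Data

variable {F : Type} [Field F] [Fintype F] {p : ℕ} [hp : Fact p.Prime] [CharP F p]
variable {G : Type*} [Group G] [Finite G] {S : Subgroup G} (D : Data p F S)

/-- The fixed points of the involution in the kernel. -/
def core : Subgroup G := D.π.ker ⊓ Subgroup.centralizer {D.t}

theorem mem_core {e : G} : e ∈ D.core ↔ D.π e = 1 ∧ e * D.t = D.t * e := by
  rw [core, Subgroup.mem_inf, MonoidHom.mem_ker, Subgroup.mem_centralizer_singleton_iff]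

include D

theorem eq_one_of_V_C (hp2 : p ≠ 2) {v : G} (hv : v ∈ D.V) (h : v * D.t = D.t * v) : v = 1 := by
  have h1 := D.t_V hv
  rw [← h, mul_inv_cancel_right] at h1
  exact D.eq_one_of_sq' hp2 (D.V_le_S hv) (mul_eq_one_iff_eq_inv.2 h1)

theorem V_unique (hp2 : p ≠ 2) {v v' c c' : G} (hv : v ∈ D.V) (hv' : v' ∈ D.V) (hc : c * D.t = D.t * c)
    (hc' : c' * D.t = D.t * c') (h : v * c = v' * c') : v = v' ∧ c = c' := by
  have h1 : v'⁻¹ * v = c' * c⁻¹ := by
    rw [eq_mul_inv_iff_mul_eq, mul_assoc, h, inv_mul_cancel_left]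
  have h2 := D.eq_one_of_V_C hp2 (mul_mem (inv_mem hv') hv) (by
    rw [h1]
    exact ((show Commute c' D.t from hc').mul_left (show Commute c D.t from hc).inv_left).eq)
  rw [inv_mul_eq_one] at h2
  subst h2
  exact ⟨rfl, mul_left_cancel h⟩

theorem index_upper (h4 : 4 ≤ Fintype.card F) : (upper F).index.Coprime p := by
  have h := Subgroup.card_mul_index (upper F)
  rw [card_upper] at h
  have h2 := CfsgLib.CommutingSLTwo.card_SL2 (F := F)
  rw [← h] at h2
  have h3 : (upper F).index = Fintype.card F ^ 2 - 1 := by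
    refine Nat.eq_of_mul_eq_mul_left (show 0 < Fintype.card F * (Fintype.card F - 1) from
      Nat.mul_pos (by omega) (by omega)) ?_
    calc Fintype.card F * (Fintype.card F - 1) * (upper F).index
        = Fintype.card F * (upper F).index * (Fintype.card F - 1) := by ring
      _ = _ := h2
      _ = _ := by
        rw [show Fintype.card F ^ 2 - Fintype.card F = Fintype.card F * (Fintype.card F - 1) by
          rw [pow_two, Nat.mul_sub_one]]
        ring
  rw [h3]
  refine (hp.1.coprime_iff_not_dvd.2 fun hd => ?_).symm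
  obtain ⟨n, -, hn⟩ := FiniteField.card F p
  have hd2 : p ∣ Fintype.card F ^ 2 :=
    dvd_pow (by rw [hn]; exact dvd_pow_self p n.2.ne') two_ne_zero
  have hpos : 1 ≤ Fintype.card F ^ 2 := Nat.one_le_pow _ _ (by omega)
  have := Nat.dvd_sub hd2 hd
  rw [show Fintype.card F ^ 2 - (Fintype.card F ^ 2 - 1) = 1 by omega] at this
  exact hp.1.not_dvd_one this

/-- The splitting. -/
theorem exists_split (hp5 : 5 ≤ p)
    (hab : ∀ e e', D.π e = 1 → e * D.t = D.t * e → D.π e' = 1 → e' * D.t = D.t * e' → e * e' = e' * e) :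
    ∃ G₀ E : Subgroup G, IsInternalDirectProduct G₀ E ⊤ ∧ IsElementaryAbelian p E ∧
      Nonempty (↥G₀ ≃* ↥(qdOver F)) := by
  classical
  have hp2 : p ≠ 2 := by omega
  have hq : 5 ≤ Fintype.card F := by
    obtain ⟨n, -, hn⟩ := FiniteField.card F p
    rw [hn]
    exact hp5.trans (Nat.le_self_pow n.2.ne' p)
  have hC : ∀ c, c * D.t = D.t * c → ∃ k ∈ D.cover, ∃ e ∈ D.core, c = k * e := fun c hc => by
    obtain ⟨k, hk, hπ⟩ := D.exists_cover hq (D.π c)
    refine ⟨k, hk, k⁻¹ * c, (D.mem_core).2 ⟨?_, ?_⟩, (mul_inv_cancel_left k c).symm⟩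
    · rw [map_mul, map_inv, hπ, inv_mul_cancel]
    · exact ((show Commute k D.t from ((D.mem_cover).1 hk).1).inv_left.mul_left
        (show Commute c D.t from hc)).eq
  have hcent : ∀ e ∈ D.core, ∀ g, g * e = e * g := fun e he g => by
    obtain ⟨v, hv, c, hc, rfl⟩ := D.gen g
    obtain ⟨k, hk, e', he', rfl⟩ := hC c hc
    obtain ⟨he1, he2⟩ := (D.mem_core).1 he
    obtain ⟨he1', he2'⟩ := (D.mem_core).1 he'
    exact ((show Commute e v from D.ker_comm he1 hv).mul_right ((show Commute k e from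
      ((D.mem_cover).1 hk).2 e he1 he2).symm.mul_right (hab e e' he1 he2 he1' he2'))).eq.symm
  set C := Subgroup.centralizer {D.t} with hCdef
  have hmemC : ∀ {c}, c ∈ C ↔ c * D.t = D.t * c := fun {c} => Subgroup.mem_centralizer_singleton_iff
  have hπC : C.map D.π = ⊤ := top_le_iff.1 fun A _ => by
    obtain ⟨g, rfl⟩ := D.surj A
    obtain ⟨v, hv, c, hc, rfl⟩ := D.gen g
    exact ⟨c, hmemC.2 hc, by rw [map_mul, D.V_ker v hv, one_mul]⟩
  -- the transfer
  have hLE : ∀ z, z ∈ ⁅C, C⁆ → z ∈ D.core → z = 1 := by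
    intro z hzL hzE
    let H : Subgroup C := S.subgroupOf C
    have hHc : ∀ a b : H, a * b = b * a := by
      rintro ⟨⟨a, ha⟩, haS⟩ ⟨⟨b, hb⟩, hbS⟩
      refine Subtype.ext (Subtype.ext ?_)
      show a * b = b * a
      obtain ⟨x, hx, hxS, e, he, het, rfl⟩ := D.exists_X_mul hq haS (hmemC.1 ha)
      exact ((show Commute x b from D.X_central hp5 hx hxS hbS (hmemC.1 hb)).mul_left
        (show Commute e b from (hcent e ((D.mem_core).2 ⟨he, het⟩) b).symm)).eq
    letI : CommGroup H := { (inferInstance : Group H) with mul_comm := hHc }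
    have hzC : z ∈ C := hmemC.2 ((D.mem_core).1 hzE).2
    have hk : (⟨z, hzC⟩ : C) ∈ (MonoidHom.transfer (MonoidHom.id H)).ker := by
      refine Abelianization.commutator_subset_ker _ ?_
      rw [← Subgroup.mem_map_iff_mem (f := C.subtype) Subtype.val_injective,
        Subgroup.map_subtype_commutator]
      exact hzL
    have hidx : H.index.Coprime p := by
      have hH : H = (upper F).comap (D.π.comp C.subtype) := by
        ext c
        rw [Subgroup.mem_subgroupOf, Subgroup.mem_comap, D.S_iff]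
        rfl
      rw [hH, Subgroup.index_comap_of_surjective]
      · exact D.index_upper (by omega)
      · intro A
        obtain ⟨c, hc, hcA⟩ := (hπC ▸ Subgroup.mem_top A : A ∈ C.map D.π)
        exact ⟨⟨c, hc⟩, hcA⟩
    rw [MonoidHom.mem_ker, MonoidHom.transfer_eq_pow (MonoidHom.id H) _ (fun k g₀ _ => by
      refine Subtype.ext ?_
      push_cast
      rw [mul_assoc, ((show Commute (g₀ : G) z from hcent z hzE g₀).pow_right k).symm.eq,
        inv_mul_cancel_left])] at hk
    have h1 : z ^ H.index = 1 := by simpa using congrArg (fun w : H => ((w : C) : G)) hk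
    have h2 := pow_gcd_eq_one.2 ⟨h1, D.exp z (D.mem_S_of_ker ((D.mem_core).1 hzE).1)⟩
    rwa [hidx.gcd_eq_one, pow_one] at h2
  have hπL : (⁅C, C⁆).map D.π = ⊤ := by
    rw [Subgroup.map_commutator, hπC]
    exact commutator_sl (by omega)
  haveI := D.V_normal
  -- the translation part
  choose vg hvg cg hcg hdec using D.gen
  let w : G → Fin 2 → F := fun g => D.ψ ⟨vg g, hvg g⟩
  have hw : ∀ {v c : G} (hv : v ∈ D.V), c * D.t = D.t * c → w (v * c) = D.ψ ⟨v, hv⟩ := fun {v c} hv hc =>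
    congrArg D.ψ (Subtype.ext (D.V_unique hp2 (hvg _) hv (hcg _) hc (hdec _).symm).1)
  have hwmul : ∀ g h, w (g * h) = w g + (D.π g).1.mulVec (w h) := by
    intro g h
    obtain ⟨u, hu, huψ⟩ := D.ψ_conj (cg g) ⟨vg h, hvg h⟩
    have hπg : D.π g = D.π (cg g) := by
      conv_lhs => rw [hdec g, map_mul, D.V_ker _ (hvg g), one_mul]
    rw [hπg]
    show _ = D.ψ ⟨vg g, hvg g⟩ + (D.π (cg g)).1.mulVec (D.ψ ⟨vg h, hvg h⟩)
    rw [← huψ, ← D.ψ_mul]
    have e : g * h = (vg g * (u : G)) * (cg g * cg h) := by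
      conv_lhs => rw [hdec g, hdec h]
      rw [hu]
      group
    rw [e, hw (mul_mem (hvg g) u.2) ((show Commute (cg g) D.t from hcg g).mul_left
      (show Commute (cg h) D.t from hcg h)).eq]
    rfl
  let M : G → Matrix (Fin 3) (Fin 3) F := fun g =>
    !![(D.π g).1 0 0, (D.π g).1 0 1, w g 0; (D.π g).1 1 0, (D.π g).1 1 1, w g 1; 0, 0, 1]
  have hdet : ∀ g, (M g).det = 1 := fun g => by
    have := (D.π g).2
    rw [Matrix.det_fin_two] at this
    simp [M, Matrix.det_fin_three]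
    linear_combination this
  let Φ : G →* ↥(qdOver F) := MonoidHom.mk'
    (fun g => ⟨⟨M g, hdet g⟩, Subgroup.subset_closure ⟨by simp [M], by simp [M], by simp [M]⟩⟩)
    fun g h => Subtype.ext (Subtype.ext (by
      show M (g * h) = M g * M h
      simp only [M, hwmul, map_mul, Matrix.SpecialLinearGroup.coe_mul]
      ext i j
      fin_cases i <;> fin_cases j <;>
        simp [Matrix.mul_apply, Fin.sum_univ_three, Fin.sum_univ_two, Matrix.mulVec, dotProduct] <;> ring))
  set L : Subgroup G := ⁅C, C⁆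
  have hLC : L ≤ C := Subgroup.commutator_le_self C
  have hker : ∀ g ∈ D.V ⊔ L, Φ g = 1 → g = 1 := by
    intro g hg h1
    obtain ⟨v, hv, l, hl, rfl⟩ := Subgroup.mem_sup_of_normal_left.1 hg
    have e := fun i j => congrFun (congrFun (congrArg (fun m : qdOver F => m.1.1) h1) i) j
    have hπ : D.π (v * l) = 1 := by
      refine Subtype.ext ?_
      rw [Matrix.SpecialLinearGroup.coe_one, Matrix.eta_fin_two (D.π (v * l)).1, Matrix.one_fin_two]
      have e00 : (D.π (v * l)).1 0 0 = 1 := by simpa [Φ, M] using e 0 0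
      have e01 : (D.π (v * l)).1 0 1 = 0 := by simpa [Φ, M] using e 0 1
      have e10 : (D.π (v * l)).1 1 0 = 0 := by simpa [Φ, M] using e 1 0
      have e11 : (D.π (v * l)).1 1 1 = 1 := by simpa [Φ, M] using e 1 1
      rw [e00, e01, e10, e11]
    have hv0 : D.ψ ⟨v, hv⟩ = D.ψ 1 := by
      rw [← hw hv (hmemC.1 (hLC hl)), D.ψ_one]
      have e02 : w (v * l) 0 = 0 := by simpa [Φ, M] using e 0 2
      have e12 : w (v * l) 1 = 0 := by simpa [Φ, M] using e 1 2
      funext i
      fin_cases i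
      · exact e02
      · exact e12
    obtain rfl : v = 1 := congrArg Subtype.val (D.ψ_bij.1 hv0)
    rw [one_mul] at hπ ⊢
    exact hLE l hl ((D.mem_core).2 ⟨hπ, hmemC.1 (hLC hl)⟩)
  have hΦsurj : ∀ m : qdOver F, ∃ g ∈ D.V ⊔ L, Φ g = m := by
    intro m
    obtain ⟨h0, h1, h2⟩ := Cfsg.Agent.S2762.row_two m.2
    obtain ⟨v, hv⟩ := D.ψ_bij.2 ![m.1.1 0 2, m.1.1 1 2]
    obtain ⟨l, hl, hlm⟩ := (hπL ▸ Subgroup.mem_top _ :
      Cfsg.Agent.S2762.linHom m ∈ L.map D.π)
    refine ⟨v * l, Subgroup.mul_mem_sup v.2 hl, Subtype.ext (Subtype.ext ?_)⟩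
    show M (v * l) = m.1.1
    simp only [M, hw v.2 (hmemC.1 (hLC hl)), map_mul, D.V_ker v v.2, one_mul, hlm,
      Cfsg.Agent.S2762.linHom_val]
    rw [show (⟨(v : G), v.2⟩ : D.V) = v from rfl, hv]
    ext i j
    fin_cases i <;> fin_cases j <;> simp [h0, h1, h2]
  refine ⟨D.V ⊔ L, D.core, ⟨le_top, le_top, fun a _ b hb => hcent b hb a, ?_, ?_⟩,
    ⟨⟨⟨fun a b => Subtype.ext (hcent b b.2 a)⟩⟩, fun a ha => D.exp a (D.mem_S_of_ker ((D.mem_core).1 ha).1)⟩,
    ⟨MulEquiv.ofBijective (Φ.comp (D.V ⊔ L).subtype) ⟨?_, ?_⟩⟩⟩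
  · rw [eq_bot_iff]
    intro g hg
    obtain ⟨hg0, hgE⟩ := Subgroup.mem_inf.1 hg
    obtain ⟨v, hv, l, hl, rfl⟩ := Subgroup.mem_sup_of_normal_left.1 hg0
    obtain ⟨h1, h2⟩ := (D.mem_core).1 hgE
    rw [Subgroup.mem_bot]
    obtain rfl : v = 1 := (D.V_unique hp2 hv (one_mem _) (hmemC.1 (hLC hl))
      (c' := v * l) h2 (one_mul _).symm).1
    rw [one_mul] at h1 h2 ⊢
    exact hLE l hl ((D.mem_core).2 ⟨h1, h2⟩)
  · refine top_le_iff.1 fun g _ => ?_
    obtain ⟨l, hl, hlg⟩ := (hπL ▸ Subgroup.mem_top _ : D.π (cg g) ∈ L.map D.π)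
    have hE : l⁻¹ * cg g ∈ D.core := (D.mem_core).2 ⟨by rw [map_mul, map_inv, hlg, inv_mul_cancel],
      ((show Commute l D.t from hmemC.1 (hLC hl)).inv_left.mul_left (show Commute (cg g) D.t from hcg g)).eq⟩
    rw [show g = vg g * l * (l⁻¹ * cg g) by rw [mul_assoc, mul_inv_cancel_left, ← hdec]]
    exact Subgroup.mul_mem_sup (Subgroup.mul_mem_sup (hvg g) hl) hE
  · refine (injective_iff_map_eq_one _).2 fun a ha => Subtype.ext (hker a a.2 ha)
  · intro m
    obtain ⟨g, hg, hgm⟩ := hΦsurj m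
    exact ⟨⟨g, hg⟩, hgm⟩

end CfsgLib.MinParFF.QdPush.Data
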