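import Cfsg.Agent.MinParFF.QdPush.Fix
import Cfsg.Agent.MinParFF.QdPush.Split

/-!
A maximal local subgroup as in the pushing up situation whose Sylow normaliser is not contained in it: the
fixed points of the involution in the core are abelian.
-/

set_option autoImplicit false
set_option linter.style.haveILetI false
set_option linter.unusedSectionVars false

open Cfsg
open scoped MatrixGroups commutatorElement

namespace CfsgLib.MinParFF.QdPush

theorem mem_normalizer_of_le {H : Type*} [Group H] [Finite H] {N : Subgroup H} {β : H}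
    (h : ∀ x ∈ N, β * x * β⁻¹ ∈ N) : β ∈ Subgroup.normalizer (N : Set H) := by
  have heq : N.map (MulAut.conj β).toMonoidHom = N := by
    refine Subgroup.eq_of_le_of_card_ge ?_ ?_
    · rintro _ ⟨x, hx, rfl⟩
      simpa using h x hx
    · rw [Subgroup.card_map_of_injective (MulAut.conj β).injective]
  rw [Subgroup.mem_normalizer_iff]
  refine fun x => ⟨h x, fun hx => ?_⟩
  rw [← heq] at hx
  obtain ⟨y, hy, hxy⟩ := hx
  simp only [MulEquiv.coe_toMonoidHom, MulAut.conj_apply, mul_left_inj, mul_right_inj] at hxy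
  exact hxy ▸ hy

theorem eq_neg_one_of_sq {F : Type} [Field F] {p : ℕ} [CharP F p] (hp2 : p ≠ 2) {A : SL(2, F)}
    (hA : A * A = 1) : A = 1 ∨ A = -1 := by
  have h : A.1 = A.1.adjugate := by
    conv_lhs => rw [← inv_eq_of_mul_eq_one_right hA]
    rw [Matrix.SpecialLinearGroup.coe_inv]
  rw [Matrix.adjugate_fin_two] at h
  have h2 : (2 : F) ≠ 0 := Ring.two_ne_zero ((ringChar.eq F p).symm ▸ hp2)
  have had : A.1 0 0 = A.1 1 1 := by simpa using congrFun (congrFun h 0) 0
  have hb : A.1 0 1 = 0 := by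
    have := congrFun (congrFun h 0) 1
    simp at this
    rw [eq_neg_iff_add_eq_zero, ← two_mul] at this
    exact (mul_eq_zero.1 this).resolve_left h2
  have hc : A.1 1 0 = 0 := by
    have := congrFun (congrFun h 1) 0
    simp at this
    rw [eq_neg_iff_add_eq_zero, ← two_mul] at this
    exact (mul_eq_zero.1 this).resolve_left h2
  have hd := A.2
  rw [Matrix.det_fin_two, hb, hc, mul_zero, sub_zero, ← had] at hd
  rcases mul_self_eq_one_iff.1 hd with h1 | h1
  · refine Or.inl (Subtype.ext ?_)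
    ext i j
    fin_cases i <;> fin_cases j <;> simp [← had, hb, hc, h1]
  · refine Or.inr (Subtype.ext ?_)
    ext i j
    fin_cases i <;> fin_cases j <;> simp [← had, hb, hc, h1]

variable {F : Type} [Field F] [Fintype F] {p : ℕ} [hp : Fact p.Prime] [CharP F p]

theorem Data.core_abelian {H : Type*} [Group H] [Finite H] {G : Subgroup H} {S : Subgroup G}
    (D : Data p F S) (hp5 : 5 ≤ p)
    (hmax : ∀ R : Subgroup H, IsPGroup p ↥R → R ≠ ⊥ → G ≤ Subgroup.normalizer (R : Set H) →
      Subgroup.normalizer (R : Set H) = G)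
    {α : H} (hαN : α ∈ Subgroup.normalizer ((S.map G.subtype : Subgroup H) : Set H)) (hαG : α ∉ G) :
    ∀ e e', D.π e = 1 → e * D.t = D.t * e → D.π e' = 1 → e' * D.t = D.t * e' → e * e' = e' * e := by
  classical
  have hp2 : p ≠ 2 := by omega
  have hq : 5 ≤ Fintype.card F := by
    obtain ⟨n, -, hn⟩ := FiniteField.card F p
    rw [hn]
    exact hp5.trans (Nat.le_self_pow n.2.ne' p)
  by_contra hne
  set Dd : Subgroup G := ⁅D.core, D.core⁆ with hDd
  have hDne : Dd ≠ ⊥ := by
    intro h0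
    apply hne
    intro e e' he het he' het'
    refine commutatorElement_eq_one_iff_mul_comm.1 ?_
    rw [← Subgroup.mem_bot, ← h0]
    exact Subgroup.commutator_mem_commutator ((D.mem_core).2 ⟨he, het⟩) ((D.mem_core).2 ⟨he', het'⟩)
  have hDE : Dd ≤ D.core := Subgroup.commutator_le_self _
  have hES : ∀ e ∈ D.core, e ∈ S := fun e he => D.mem_S_of_ker ((D.mem_core).1 he).1
  have hDS : Dd ≤ S := fun d hd => hES d (hDE hd)
  have hDn : Dd.Normal := by
    refine ⟨fun d hd g => ?_⟩
    obtain ⟨v, hv, c, hc, rfl⟩ := D.gen g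
    have h1 : c * d * c⁻¹ ∈ Dd := by
      have h2 : Dd.map (MulAut.conj c).toMonoidHom ≤ Dd := by
        rw [hDd, Subgroup.map_commutator]
        refine Subgroup.commutator_mono ?_ ?_ <;>
          (rintro _ ⟨e, he, rfl⟩
           obtain ⟨he1, he2⟩ := (D.mem_core).1 he
           refine (D.mem_core).2 ⟨by simp [he1], ?_⟩
           simp only [MulEquiv.coe_toMonoidHom, MulAut.conj_apply]
           exact (((show Commute c D.t from hc).mul_left (show Commute e D.t from he2)).mul_left
             (show Commute c D.t from hc).inv_left).eq)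
      simpa using h2 (Subgroup.mem_map_of_mem _ hd)
    rw [show v * c * d * (v * c)⁻¹ = v * (c * d * c⁻¹) * v⁻¹ by group,
      ← D.ker_comm ((D.mem_core).1 (hDE h1)).1 hv, mul_inv_cancel_right]
    exact h1
  set DH : Subgroup H := Dd.map G.subtype with hDH
  have hDHN : Subgroup.normalizer (DH : Set H) = G := by
    refine hmax DH ((D.S_p.to_le hDS).map _) ?_ ?_
    · intro h0
      apply hDne
      rwa [hDH, Subgroup.map_eq_bot_iff_of_injective _ Subtype.val_injective] at h0
    · intro g hg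
      refine mem_normalizer_of_le ?_
      rintro _ ⟨d, hd, rfl⟩
      exact ⟨⟨g, hg⟩ * d * ⟨g, hg⟩⁻¹, hDn.conj_mem d hd _, rfl⟩
  set SH : Subgroup H := S.map G.subtype with hSH
  have hmemSH : ∀ {g : G}, (g : H) ∈ SH ↔ g ∈ S :=
    fun {g} => Subgroup.mem_map_iff_mem Subtype.val_injective
  -- elements fixing the involution
  have hfixG : ∀ β : H, β ∈ Subgroup.normalizer (SH : Set H) → β * D.t = D.t * β → β ∈ G := by
    intro β hβ hβt
    rw [← hDHN]
    refine mem_normalizer_of_le ?_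
    have hgen : ∀ e ∈ D.core, ∀ e' ∈ D.core, β * (⁅e, e'⁆ : G) * β⁻¹ ∈ DH := by
      intro e he e' he'
      have key : ∀ e ∈ D.core, ∃ x ∈ D.cover, x ∈ S ∧ ∃ e₁, D.π e₁ = 1 ∧ e₁ * D.t = D.t * e₁ ∧
          β * (e : H) * β⁻¹ = ((x * e₁ : G) : H) := by
        intro e he
        obtain ⟨s, hs, hse⟩ := (Subgroup.mem_normalizer_iff.1 hβ _).1 (hmemSH.2 (hES e he))
        have hst : s * D.t = D.t * s := by
          refine Subtype.ext ?_
          rw [Subgroup.coe_mul, Subgroup.coe_mul, show (s : H) = β * e * β⁻¹ from hse]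
          have he2 : (e : H) * D.t = D.t * e := congrArg Subtype.val ((D.mem_core).1 he).2
          exact ((((show Commute β (D.t : H) from hβt)).mul_left (show Commute (e : H) D.t from he2)).mul_left
            (show Commute β (D.t : H) from hβt).inv_left).eq
        obtain ⟨x, hx, hxS, e₁, h1, h2, rfl⟩ := D.exists_X_mul hq hs hst
        exact ⟨x, hx, hxS, e₁, h1, h2, hse.symm⟩
      obtain ⟨x, hx, hxS, a, ha, hat, hxa⟩ := key e he
      obtain ⟨x', hx', hxS', b, hb, hbt, hxb⟩ := key e' he'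
      refine ⟨⁅a, b⁆, Subgroup.commutator_mem_commutator ((D.mem_core).2 ⟨ha, hat⟩)
        ((D.mem_core).2 ⟨hb, hbt⟩), ?_⟩
      have h1 : ⁅x * a, x' * b⁆ = ⁅a, b⁆ := by
        rw [D.comm_cl_left hxS (D.mem_S_of_ker ha) (mul_mem hxS' (D.mem_S_of_ker hb)),
          D.comm_cl_right hxS hxS' (D.mem_S_of_ker hb),
          D.comm_cl_right (D.mem_S_of_ker ha) hxS' (D.mem_S_of_ker hb),
          commutatorElement_eq_one_iff_mul_comm.2 (D.X_comm hp5 hx hxS hx' hxS'),
          commutatorElement_eq_one_iff_mul_comm.2 (((D.mem_cover).1 hx).2 b hb hbt),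
          commutatorElement_eq_one_iff_mul_comm.2 (((D.mem_cover).1 hx').2 a ha hat).symm, one_mul, one_mul,
          one_mul]
      rw [← h1]
      rw [map_commutatorElement, Subgroup.coe_subtype, ← hxa, ← hxb]
      simp only [commutatorElement_def, Subgroup.coe_mul, Subgroup.coe_inv]
      group
    rintro _ ⟨d, hd, rfl⟩
    have hle : Dd ≤ DH.comap ((MulAut.conj β).toMonoidHom.comp G.subtype) := by
      rw [hDd, Subgroup.commutator_le]
      intro e he e' he'
      exact hgen e he e' he'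
    simpa using hle hd
  -- involutions
  have hinvo : ∀ z : G, (z : H) ∈ Subgroup.normalizer (SH : Set H) → z * z = 1 → z ≠ 1 →
      D.π z = -1 := by
    intro z hzN hz hz1
    rcases eq_neg_one_of_sq (p := p) hp2 (by rw [← map_mul, hz, map_one] : D.π z * D.π z = 1) with h | h
    · exact absurd (D.eq_one_of_sq' hp2 (D.mem_S_of_ker h) hz) hz1
    · exact h
  have hzt : ∀ z : G, (z : H) ∈ Subgroup.normalizer (SH : Set H) → z * z = 1 → z ≠ 1 →
      z * D.t = D.t * z → z = D.t := by
    intro z hzN hz hz1 hzt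
    have h := D.eq_one_of_sq' hp2 (x := z * D.t) (D.mem_S_of_ker (by
      rw [map_mul, hinvo z hzN hz hz1, D.π_t, neg_one_mul, neg_neg])) (by
        rw [mul_assoc, ← mul_assoc D.t, ← hzt, mul_assoc, D.t_sq, mul_one, hz])
    rw [mul_eq_one_iff_eq_inv, D.t_inv] at h
    exact h
  have htne : D.t ≠ 1 := fun h0 => by
    have := D.π_t
    rw [h0, map_one] at this
    have h3 := congrArg (fun g : SL(2, F) => g.1 0 0) this
    simp only [Matrix.SpecialLinearGroup.coe_neg, Matrix.SpecialLinearGroup.coe_one, Matrix.neg_apply,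
      Matrix.one_apply_eq] at h3
    exact Ring.neg_one_ne_one_of_char_ne_two ((ringChar.eq F p).symm ▸ hp2) h3.symm
  have htN : (D.t : H) ∈ Subgroup.normalizer (SH : Set H) := by
    refine mem_normalizer_of_le ?_
    rintro _ ⟨s, hs, rfl⟩
    exact ⟨D.t * s * D.t⁻¹, D.conj_t_mem hs, rfl⟩
  set τ : H := (D.t : H) with hτ
  have hττ : τ * τ = 1 := congrArg Subtype.val D.t_sq
  have hτi : τ⁻¹ = τ := inv_eq_of_mul_eq_one_right hττ
  set τ' : H := α * τ * α⁻¹ with hτ'
  have hττ' : τ' * τ' = 1 := by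
    rw [hτ', show α * τ * α⁻¹ * (α * τ * α⁻¹) = α * (τ * τ) * α⁻¹ by group, hττ]
    group
  have hτ'N : τ' ∈ Subgroup.normalizer (SH : Set H) := mul_mem (mul_mem hαN htN) (inv_mem hαN)
  have hτ'1 : τ' ≠ 1 := fun h0 => htne (Subtype.ext (conj_eq_one_iff.1 h0))
  have hαcomm : ¬ (τ * τ' = τ' * τ) := by
    intro hc
    have h1 : τ' ∈ G := hfixG τ' hτ'N hc.symm
    have h2 := hzt ⟨τ', h1⟩ hτ'N (Subtype.ext hττ') (fun h0 => hτ'1 (congrArg Subtype.val h0))
      (Subtype.ext hc.symm)
    have h3 : α * τ * α⁻¹ = τ := congrArg Subtype.val h2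
    exact hαG (hfixG α hαN (mul_inv_eq_iff_eq_mul.1 h3))
  set r : H := τ * τ' with hr
  have hrN : r ∈ Subgroup.normalizer (SH : Set H) := mul_mem htN hτ'N
  have hrinv : τ * r * τ⁻¹ = r⁻¹ := by
    rw [hr, hτi, mul_inv_rev, inv_eq_of_mul_eq_one_right hττ', hτi, ← mul_assoc, hττ, one_mul]
  rcases Nat.even_or_odd (orderOf r) with ⟨k, hk⟩ | hodd
  · -- even order
    set z := r ^ k with hz
    have hkpos : 0 < k := by
      have := orderOf_pos r
      omega
    have hzz : z * z = 1 := by rw [hz, ← pow_add, ← hk, pow_orderOf_eq_one]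
    have hz1 : z ≠ 1 := fun h0 => by
      have := Nat.le_of_dvd hkpos (orderOf_dvd_of_pow_eq_one h0)
      omega
    have hzτ : z * τ = τ * z := by
      have h1 : τ * z * τ⁻¹ = z := by
        rw [hz, ← conj_pow, hrinv, inv_pow]
        exact inv_eq_of_mul_eq_one_right hzz
      exact (mul_inv_eq_iff_eq_mul.1 h1).symm
    have hzG : z ∈ G := hfixG z (pow_mem hrN k) hzτ
    have hzt' : z = τ := congrArg Subtype.val (hzt ⟨z, hzG⟩ (pow_mem hrN k) (Subtype.ext hzz)
      (fun h0 => hz1 (congrArg Subtype.val h0)) (Subtype.ext hzτ))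
    apply hαcomm
    have h1 : Commute r τ := hzt' ▸ Commute.self_pow r k
    have h2 : τ' = τ⁻¹ * r := by rw [hr, inv_mul_cancel_left]
    rw [h2]
    rw [mul_assoc, h1.eq, inv_mul_cancel_left]
  · -- odd order
    let eS : S ≃* SH := S.equivMapOfInjective G.subtype Subtype.val_injective
    let ρ : ↥(Subgroup.normalizer (SH : Set H)) →* MulAut S :=
      (MulAut.congr eS.symm).toMonoidHom.comp SH.normalizerMonoidHom
    have hρ : ∀ (β : ↥(Subgroup.normalizer (SH : Set H))) (s : S),
        (((ρ β s : S) : G) : H) = β * ((s : G) : H) * (β : H)⁻¹ := fun β s => by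
      have h1 : ∀ y : SH, (((eS.symm y : S) : G) : H) = y := fun y => by
        conv_rhs => rw [← eS.apply_symm_apply y]
        rfl
      show (((eS.symm ((SH.normalizerMonoidHom β) (eS s)) : S) : G) : H) = _
      rw [h1]
      rfl
    have hrG : r ∈ G := by
      rw [← hDHN]
      refine mem_normalizer_of_le ?_
      rintro _ ⟨d, hd, rfl⟩
      have hle : Dd ≤ DH.comap ((MulAut.conj r).toMonoidHom.comp G.subtype) := by
        rw [hDd, Subgroup.commutator_le]
        intro e he e' he'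
        have hmem : ⁅e, e'⁆ ∈ S := hDS (Subgroup.commutator_mem_commutator he he')
        have hfix := D.r_fix hp5 (ρ ⟨r, hrN⟩) (Odd.of_dvd_nat hodd (orderOf_dvd_of_pow_eq_one (by
          rw [← map_pow, show (⟨r, hrN⟩ : ↥(Subgroup.normalizer (SH : Set H))) ^ orderOf r = 1 from
            Subtype.ext (pow_orderOf_eq_one r), map_one]))) (fun s => by
          refine Subtype.ext ?_
          rw [← map_inv, hρ]
          simp only [Subgroup.coe_mul, Subgroup.coe_inv, hρ]
          rw [show τ * (r * ((s : G) : H) * r⁻¹) * τ⁻¹ =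
            (τ * r * τ⁻¹) * (τ * ((s : G) : H) * τ⁻¹) * (τ * r * τ⁻¹)⁻¹ by group, hrinv])
          ((D.mem_core).1 he).1 ((D.mem_core).1 he).2 ((D.mem_core).1 he').1 ((D.mem_core).1 he').2 hmem
        have h1 := hρ ⟨r, hrN⟩ ⟨⁅e, e'⁆, hmem⟩
        rw [hfix] at h1
        show r * _ * r⁻¹ ∈ DH
        exact h1 ▸ Subgroup.mem_map_of_mem _ (Subgroup.commutator_mem_commutator he he')
      simpa using hle hd
    have hτ'G : τ' ∈ G := by
      have h2 : τ' = τ⁻¹ * r := by rw [hr, inv_mul_cancel_left]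
      rw [h2]
      exact mul_mem (inv_mem D.t.2) hrG
    have hπ' : D.π ⟨τ', hτ'G⟩ = -1 :=
      hinvo ⟨τ', hτ'G⟩ hτ'N (Subtype.ext hττ') fun h0 => hτ'1 (congrArg Subtype.val h0)
    have hrS : (⟨r, hrG⟩ : G) ∈ S := by
      refine D.mem_S_of_ker ?_
      rw [show (⟨r, hrG⟩ : G) = D.t * ⟨τ', hτ'G⟩ from rfl, map_mul, D.π_t, hπ', neg_one_mul, neg_neg]
    obtain ⟨k, hk⟩ := hodd
    set s : H := r ^ k with hs
    have hsN : s ∈ Subgroup.normalizer (SH : Set H) := pow_mem hrN k
    have hst : s * τ * s⁻¹ = τ' := by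
      have h2 : r ^ (2 * k + 1) = 1 := hk ▸ pow_orderOf_eq_one r
      have h1 : τ * (r ^ k)⁻¹ = r ^ k * τ := by
        refine mul_inv_eq_iff_eq_mul.1 ?_
        rw [show τ * (r ^ k)⁻¹ * τ⁻¹ = (τ * r ^ k * τ⁻¹)⁻¹ by group, ← conj_pow, hrinv, inv_pow, inv_inv]
      have h5 : τ' = r⁻¹ * τ := by
        rw [← hrinv, inv_mul_cancel_right, hr, ← mul_assoc, hττ, one_mul]
      rw [hs, mul_assoc, h1, h5, ← mul_assoc, ← pow_add, show k + k = 2 * k by ring]
      congr 1
      exact eq_inv_of_mul_eq_one_left (by rw [← pow_succ]; exact h2)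
    apply hαG
    have h4 : s⁻¹ * α ∈ G := by
      refine hfixG _ (mul_mem (inv_mem hsN) hαN) ?_
      have h5 : α * τ = s * τ * s⁻¹ * α := by rw [hst, hτ']; group
      rw [mul_assoc, h5]
      group
    have h6 : s ∈ G := pow_mem hrG k
    simpa using mul_mem h6 h4

end CfsgLib.MinParFF.QdPush
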