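import Cfsg.Agent.MinParFF.QdPush.Class2

/-!
An automorphism of odd order of the Sylow subgroup that is inverted by the involution fixes the commutators
of the fixed points of the involution in the kernel.
-/

set_option autoImplicit false
set_option linter.style.haveILetI false
set_option linter.unusedSectionVars false

open Cfsg
open scoped MatrixGroups commutatorElement

namespace CfsgLib.MinParFF.QdPush.Data

variable {F : Type} [Field F] [Fintype F] {p : ℕ} [hp : Fact p.Prime] [CharP F p]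
variable {G : Type*} [Group G] [Finite G] {S : Subgroup G} (D : Data p F S)

include D

theorem comm_inv_left {x y : G} (hx : x ∈ S) (hy : y ∈ S) : ⁅x⁻¹, y⁆ = ⁅x, y⁆⁻¹ := by
  refine eq_inv_of_mul_eq_one_left ?_
  rw [← D.comm_cl_left (S.inv_mem hx) hx hy, inv_mul_cancel, commutatorElement_one_left]

theorem comm_inv_right {x y : G} (hx : x ∈ S) (hy : y ∈ S) : ⁅x, y⁻¹⁆ = ⁅x, y⁆⁻¹ := by
  refine eq_inv_of_mul_eq_one_left ?_
  rw [← D.comm_cl_right hx (S.inv_mem hy) hy, inv_mul_cancel, commutatorElement_one_right]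

theorem comm_swap {a b c d : G} (ha : a ∈ S) (hb : b ∈ S) (hc : c ∈ S) (hd : d ∈ S)
    (hac : a * c = c * a) (hbd : b * d = d * b) (h : ⁅a * b, c * d⁻¹⁆ = 1) :
    ⁅a * b⁻¹, c * d⁆ = 1 := by
  have hac' : ⁅a, c⁆ = 1 := commutatorElement_eq_one_iff_mul_comm.2 hac
  have hbd' : ⁅b, d⁆ = 1 := commutatorElement_eq_one_iff_mul_comm.2 hbd
  rw [D.comm_cl_left ha hb (S.mul_mem hc (S.inv_mem hd)), D.comm_cl_right ha hc (S.inv_mem hd),
    D.comm_cl_right hb hc (S.inv_mem hd), D.comm_inv_right ha hd, D.comm_inv_right hb hd, hac', hbd',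
    one_mul, inv_one, mul_one, inv_mul_eq_one] at h
  rw [D.comm_cl_left ha (S.inv_mem hb) (S.mul_mem hc hd), D.comm_cl_right ha hc hd,
    D.comm_cl_right (S.inv_mem hb) hc hd, D.comm_inv_left hb hc, D.comm_inv_left hb hd, hac', hbd',
    one_mul, inv_one, mul_one, h, mul_inv_cancel]

theorem commute_V_of_u {v : G} (hv : v ∈ D.V) {s : G} (hs : s ∈ S) (h : D.u s = 0) : s * v = v * s :=
  D.ker_comm (D.ker_of_u hs h) hv

theorem mem_Z_of_comm {v : G} (hv : v ∈ D.V) {s : G} (hs : s ∈ S) (hu : D.u s ≠ 0) (h : s * v = v * s) :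
    v ∈ D.Z :=
  D.mem_Z_of_snd (v := ⟨v, hv⟩) (D.snd_zero_of_comm (v := ⟨v, hv⟩) hs hu h)

theorem center_iff {z : S} : z ∈ Subgroup.center S ↔ (z : G) ∈ D.Z := by
  rw [Subgroup.mem_center_iff, D.mem_Z]
  exact ⟨fun h => ⟨z.2, fun s hs => congrArg Subtype.val (h ⟨s, hs⟩)⟩,
    fun h s => Subtype.ext (h.2 s s.2)⟩

/-- Key step. -/
theorem r_fix (hp5 : 5 ≤ p) (r : MulAut S) (hodd : Odd (orderOf r))
    (hinv : ∀ s : S, D.t * (r s : S) * D.t⁻¹ = (r⁻¹ ⟨D.t * s * D.t⁻¹, D.conj_t_mem s.2⟩ : S))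
    {e e' : G} (he : D.π e = 1) (het : e * D.t = D.t * e) (he' : D.π e' = 1) (het' : e' * D.t = D.t * e')
    (hmem : ⁅e, e'⁆ ∈ S) : (r ⟨⁅e, e'⁆, hmem⟩ : G) = ⁅e, e'⁆ := by
  classical
  have hp2 : p ≠ 2 := by omega
  have hq : 5 ≤ Fintype.card F := by
    obtain ⟨n, -, hn⟩ := FiniteField.card F p
    rw [hn]
    exact hp5.trans (Nat.le_self_pow n.2.ne' p)
  have hF2 : (2 : F) ≠ 0 := Ring.two_ne_zero ((ringChar.eq F p).symm ▸ hp2)
  let T : S → S := fun s => ⟨D.t * s * D.t⁻¹, D.conj_t_mem s.2⟩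
  have hTT : ∀ s, T (T s) = s := fun s => Subtype.ext (by
    show D.t * (D.t * s * D.t⁻¹) * D.t⁻¹ = s
    rw [show D.t * (D.t * s * D.t⁻¹) * D.t⁻¹ = (D.t * D.t) * s * (D.t * D.t)⁻¹ by group, D.t_sq]
    group)
  have hTm : ∀ a b, T (a * b) = T a * T b := fun a b => Subtype.ext (by
    show D.t * (a * b) * D.t⁻¹ = D.t * a * D.t⁻¹ * (D.t * b * D.t⁻¹)
    group)
  have hT1 : ∀ s, T (r s) = r⁻¹ (T s) := fun s => Subtype.ext (hinv s)
  have hT2 : ∀ s, T (r⁻¹ s) = r (T s) := fun s => by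
    have := hT1 (T s)
    rw [hTT] at this
    rw [← this, hTT]
  let q := QuotientGroup.mk' (Subgroup.center S)
  have hq1 : ∀ s : S, q s = 1 ↔ (s : G) ∈ D.Z := fun s => (QuotientGroup.eq_one_iff s).trans D.center_iff
  have hqc : ∀ a b, q a * q b = q b * q a := fun a b => by
    rw [← commutatorElement_eq_one_iff_mul_comm, ← map_commutatorElement, hq1]
    simp only [commutatorElement_def, Subgroup.coe_mul, Subgroup.coe_inv]
    exact D.comm_mem_Z a.2 b.2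
  have hcz : ∀ (φ : MulAut S) (a b : S), q a = q b → q (φ a) = q (φ b) := fun φ a b hab => by
    have hc : a⁻¹ * b ∈ Subgroup.center S := QuotientGroup.eq.1 hab
    refine QuotientGroup.eq.2 ?_
    rw [← map_inv, ← map_mul, Subgroup.mem_center_iff]
    intro g
    obtain ⟨g, rfl⟩ := φ.surjective g
    rw [← map_mul, ← map_mul, Subgroup.mem_center_iff.1 hc g]
  have huZ : ∀ a b : S, q a = q b → D.u a = D.u b := fun a b hab => by
    have hc : ((a⁻¹ * b : S) : G) ∈ D.Z := D.center_iff.1 (QuotientGroup.eq.1 hab)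
    have := D.u_Z hc
    rw [Subgroup.coe_mul, Subgroup.coe_inv, D.u_mul (S.inv_mem a.2) b.2, D.u_inv a.2,
      neg_add_eq_zero] at this
    exact this
  have hone : r ^ (2 * orderOf r) = 1 := by rw [mul_comm, pow_mul, pow_orderOf_eq_one, one_pow]
  have hrr : ∀ s : S, (r ^ 2) s = r (r s) := fun s => by rw [pow_two, MulAut.mul_apply]
  -- no element is inverted by the square of `r` modulo the centre
  have hneg : ∀ s : S, q (r (r s)) = (q s)⁻¹ → q s = 1 := by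
    intro s hs
    obtain ⟨k, hk⟩ := hodd
    have h1 : ∀ x, q x = q s → q (r (r x)) = (q s)⁻¹ := fun x hx => by rw [hcz r _ _ (hcz r _ _ hx), hs]
    have h2 : ∀ x, q x = (q s)⁻¹ → q (r (r x)) = q s := fun x hx => by
      rw [← map_inv] at hx
      rw [hcz r _ _ (hcz r _ _ hx), map_inv r, map_inv r, map_inv q, hs, inv_inv]
    have hj : ∀ j, q (((r ^ 2) ^ (2 * j)) s) = q s := by
      intro j
      induction j with
      | zero => simp
      | succ j ih =>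
        rw [show 2 * (j + 1) = 1 + (1 + 2 * j) by omega, pow_add, pow_add, pow_one, MulAut.mul_apply,
          MulAut.mul_apply, hrr, hrr]
        exact h2 _ (h1 _ ih)
    have h := h1 _ (hj k)
    rw [← hrr, ← MulAut.mul_apply, ← pow_succ', ← hk, ← pow_mul, hone, MulAut.one_apply,
      eq_inv_iff_mul_eq_one, ← map_mul] at h
    obtain ⟨m, hm⟩ := hp.1.odd_of_ne_two hp2
    have h1 : s = (s * s) ^ (m + 1) := by
      refine Subtype.ext ?_
      rw [Subgroup.coe_pow, Subgroup.coe_mul, ← pow_two, ← pow_mul, show 2 * (m + 1) = p + 1 by omega,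
        pow_succ, D.exp _ s.2, one_mul]
    rw [h1, map_pow, h, one_pow]
  -- an element fixed by the square is fixed
  have hfix : ∀ s : S, q (r s) = q (r⁻¹ s) → q (r s) = q s := by
    intro s hs
    have h1 : q (r (r s)) = q s := by rw [hcz r _ _ hs, MulAut.apply_inv_self]
    have hj : ∀ j, q (((r ^ 2) ^ j) s) = q s := by
      intro j
      induction j with
      | zero => simp
      | succ j ih => rw [pow_succ', MulAut.mul_apply, hrr, hcz r _ _ (hcz r _ _ ih), h1]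
    obtain ⟨k, hk⟩ := hodd
    have h := hj (k + 1)
    rw [← pow_mul, show 2 * (k + 1) = orderOf r + 1 by omega, pow_succ, pow_orderOf_eq_one, one_mul] at h
    exact h
  let Cq : S →* S ⧸ Subgroup.center S := MonoidHom.mk' (fun s => q (r s * r⁻¹ s)) fun a b => by
    simp only [map_mul]
    exact (show Commute (q (r b)) (q (r⁻¹ a)) from hqc _ _).mul_mul_mul_comm _ _
  have hCq : ∀ s, Cq s = q (r s * r⁻¹ s) := fun s => rfl
  have hker : Cq.ker = Subgroup.center S := by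
    refine le_antisymm (fun s hs => ?_) (fun s hs => ?_)
    · rw [MonoidHom.mem_ker, hCq, map_mul, mul_eq_one_iff_eq_inv, ← map_inv] at hs
      have := hcz r _ _ hs
      rw [map_inv r, MulAut.apply_inv_self, map_inv q] at this
      exact (QuotientGroup.eq_one_iff s).1 (hneg s this)
    · rw [MonoidHom.mem_ker, hCq, map_mul]
      have h0 : q s = q 1 := by rw [map_one]; exact (QuotientGroup.eq_one_iff s).2 hs
      rw [hcz r _ _ h0, hcz r⁻¹ _ _ h0]
      simp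
  have hsurj : Function.Surjective Cq := by
    rw [← MonoidHom.range_eq_top]
    refine Subgroup.eq_top_of_card_eq _ ?_
    rw [← Subgroup.index_ker, hker, Subgroup.index_eq_card]
  -- a fixed element with nonzero upper entry
  obtain ⟨l₁, hl₁, hl₁S, hl₁u⟩ := D.exists_X hq 1
  have hTfix : ∀ {c : G} (hcS : c ∈ S), c * D.t = D.t * c → T ⟨c, hcS⟩ = ⟨c, hcS⟩ :=
    fun hcS hc => Subtype.ext (D.fix_conj hc)
  obtain ⟨y₀, hy₀t, hy₀⟩ : ∃ y : S, (y : G) * D.t = D.t * y ∧ D.u (r y * r⁻¹ y : S) ≠ 0 := by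
    obtain ⟨s, hs⟩ := hsurj (q ⟨l₁, hl₁S⟩)
    obtain ⟨v, hv, c, hcS, hc, hvc⟩ := D.split s.2
    refine ⟨⟨c, hcS⟩, hc, ?_⟩
    have hTs : Cq (T s) = Cq s := by
      have h3 : r s * r⁻¹ s = r s * r⁻¹ s := rfl
      rw [hs, hCq, ← hT1, ← hT2, ← hTm]
      have h4 : q (r⁻¹ s * r s) = q ⟨l₁, hl₁S⟩ := by rw [← hs, hCq, map_mul, map_mul, hqc]
      refine QuotientGroup.eq.2 (D.center_iff.2 ?_)
      have h5 : ((r⁻¹ s * r s)⁻¹ * ⟨l₁, hl₁S⟩ : S) ∈ Subgroup.center S := QuotientGroup.eq.1 h4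
      have h6 : (((r⁻¹ s * r s)⁻¹ * ⟨l₁, hl₁S⟩ : S) : G) ∈ D.Z := D.center_iff.1 h5
      have h7 : D.t * (((r⁻¹ s * r s)⁻¹ * ⟨l₁, hl₁S⟩ : S) : G) * D.t⁻¹ ∈ D.Z := by
        refine (D.mem_Z).2 ⟨D.conj_t_mem ((D.mem_Z).1 h6).1, fun g hg => ?_⟩
        have := ((D.mem_Z).1 h6).2 (D.t * g * D.t⁻¹) (D.conj_t_mem hg)
        have hg2 : D.t * (D.t * g * D.t⁻¹) * D.t⁻¹ = g := congrArg Subtype.val (hTT ⟨g, hg⟩)
        generalize (((r⁻¹ s * r s)⁻¹ * ⟨l₁, hl₁S⟩ : S) : G) = z at this ⊢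
        calc g * (D.t * z * D.t⁻¹) = D.t * ((D.t * g * D.t⁻¹) * z) * D.t⁻¹ := by
              conv_lhs => rw [← hg2]
              group
          _ = D.t * z * D.t⁻¹ * g := by
              rw [this]
              conv_rhs => rw [← hg2]
              group
      simp only [Subgroup.coe_mul, Subgroup.coe_inv, T] at h7 ⊢
      have hl : D.t * l₁ * D.t⁻¹ = l₁ := D.fix_conj ((D.mem_cover).1 hl₁).1
      generalize ((r⁻¹ s : S) : G) = a at h7 ⊢
      generalize ((r s : S) : G) = b at h7 ⊢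
      rw [show D.t * ((a * b)⁻¹ * l₁) * D.t⁻¹ = (D.t * (a * b) * D.t⁻¹)⁻¹ * (D.t * l₁ * D.t⁻¹) by group, hl] at h7
      exact h7
    have hTq : q (T s) = q s :=
      QuotientGroup.eq.2 (hker ▸ (MonoidHom.mem_ker.2 (by rw [map_mul, map_inv, hTs, inv_mul_cancel])))
    have hvZ : v ∈ D.Z := by
      have h8 : (((T s)⁻¹ * s : S) : G) ∈ D.Z := D.center_iff.1 (QuotientGroup.eq.1 hTq)
      have h9 : (((T s)⁻¹ * s : S) : G) = c⁻¹ * (v * v) * c := by
        simp only [Subgroup.coe_mul, Subgroup.coe_inv, T]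
        rw [hvc, show D.t * (v * c) * D.t⁻¹ = (D.t * v * D.t⁻¹) * (D.t * c * D.t⁻¹) by group, D.t_V hv,
          D.fix_conj hc]
        group
      rw [h9] at h8
      have h10 : v * v ∈ D.Z := by
        have := ((D.mem_Z).1 h8).2 c hcS
        have h11 : c⁻¹ * (v * v) * c = v * v := by
          calc c⁻¹ * (v * v) * c = c * (c⁻¹ * (v * v) * c) * c⁻¹ := by rw [this, mul_inv_cancel_right]
            _ = v * v := by group
        rwa [h11] at h8
      obtain ⟨w, hw, hww, -⟩ := exists_half (p := p) hp2 D.Z h10 (D.exp _ ((D.mem_Z).1 h10).1)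
      obtain ⟨m, hm⟩ := hp.1.odd_of_ne_two hp2
      have : v = (v * v) ^ (m + 1) := by
        rw [← pow_two, ← pow_mul, show 2 * (m + 1) = p + 1 by omega, pow_succ, D.exp _ (D.V_le_S hv), one_mul]
      rw [this]
      exact D.Z.pow_mem h10 _
    have hCy : Cq ⟨c, hcS⟩ = q ⟨l₁, hl₁S⟩ := by
      rw [← hs, show s = ⟨v, D.V_le_S hv⟩ * ⟨c, hcS⟩ from Subtype.ext hvc, map_mul,
        MonoidHom.mem_ker.1 (hker.symm ▸ D.center_iff.2 hvZ : (⟨v, D.V_le_S hv⟩ : S) ∈ Cq.ker), one_mul]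
    rw [huZ _ _ ((hCq _).symm.trans hCy), hl₁u]
    exact one_ne_zero
  have hOV : ∀ y : S, (y : G) * D.t = D.t * y → ((r y * (r⁻¹ y)⁻¹ : S) : G) ∈ D.V := by
    intro y hy
    refine D.mem_V_of_inverted hp2 (SetLike.coe_mem _) ?_
    have h1 : T (r y) = r⁻¹ y := by rw [hT1, hTfix y.2 hy]
    have h2 : T (r⁻¹ y) = r y := by rw [hT2, hTfix y.2 hy]
    have h1' : D.t * (r y : S) * D.t⁻¹ = (r⁻¹ y : S) := congrArg Subtype.val h1
    have h2' : D.t * (r⁻¹ y : S) * D.t⁻¹ = (r y : S) := congrArg Subtype.val h2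
    simp only [Subgroup.coe_mul, Subgroup.coe_inv]
    generalize ((r y : S) : G) = a at h1' h2' ⊢
    generalize ((r⁻¹ y : S) : G) = b at h1' h2' ⊢
    rw [show D.t * (a * b⁻¹) * D.t⁻¹ = (D.t * a * D.t⁻¹) * (D.t * b * D.t⁻¹)⁻¹ by group, h1', h2']
    group
  have step : ∀ x y : S, (x : G) * D.t = D.t * x → (y : G) * D.t = D.t * y → x * y = y * x →
      D.u (r x * r⁻¹ x : S) = 0 → D.u (r y * r⁻¹ y : S) ≠ 0 → q (r x) = q x := by
    intro x y hx hy hxy hux huy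
    have h1 := D.commute_V_of_u (hOV y hy) (SetLike.coe_mem (r x * r⁻¹ x)) hux
    have hxy1 : ((r x : S) : G) * (r y : S) = (r y : S) * (r x : S) := by
      rw [← Subgroup.coe_mul, ← Subgroup.coe_mul, ← map_mul, ← map_mul, hxy]
    have hxy2 : ((r⁻¹ x : S) : G) * (r⁻¹ y : S) = (r⁻¹ y : S) * (r⁻¹ x : S) := by
      rw [← Subgroup.coe_mul, ← Subgroup.coe_mul, ← map_mul, ← map_mul, hxy]
    simp only [Subgroup.coe_mul, Subgroup.coe_inv] at h1
    have h3 := D.comm_swap (r x).2 (r⁻¹ x).2 (r y).2 (r⁻¹ y).2 hxy1 hxy2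
      (commutatorElement_eq_one_iff_mul_comm.2 h1)
    have hV := hOV x hx
    simp only [Subgroup.coe_mul, Subgroup.coe_inv] at hV huy
    have hZ := D.mem_Z_of_comm hV (S.mul_mem (r y).2 (r⁻¹ y).2) huy
      (commutatorElement_eq_one_iff_mul_comm.1 h3).symm
    have h4 : q (r x * (r⁻¹ x)⁻¹) = 1 := (hq1 _).2 hZ
    rw [map_mul, map_inv, mul_inv_eq_one] at h4
    exact hfix x h4
  choose l hl hlS hlu using D.exists_X hq
  let L : F → S := fun a => ⟨l a, hlS a⟩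
  have hLt : ∀ a, (l a) * D.t = D.t * l a := fun a => ((D.mem_cover).1 (hl a)).1
  have hcomm : ∀ {x : G}, x ∈ D.cover → ∀ (hxS : x ∈ S) (y : S), (y : G) * D.t = D.t * y →
      (⟨x, hxS⟩ : S) * y = y * ⟨x, hxS⟩ :=
    fun hx hxS y hy => Subtype.ext (D.X_central hp5 hx hxS y.2 hy)
  let uC : S → F := fun s => D.u (r s * r⁻¹ s : S)
  have huC : ∀ a b, uC (a * b) = uC a + uC b := fun a b => by
    show D.u _ = D.u _ + D.u _
    rw [← D.u_mul (SetLike.coe_mem _) (SetLike.coe_mem _)]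
    exact huZ _ _ ((map_mul Cq a b).trans (by rw [hCq, hCq, ← map_mul]))
  have hinj : ∀ {x : G}, x ∈ D.cover → ∀ hxS : x ∈ S, uC ⟨x, hxS⟩ = 0 → D.u x = 0 := by
    intro x hx hxS hux
    have h1 := step ⟨x, hxS⟩ y₀ ((D.mem_cover).1 hx).1 hy₀t (hcomm hx hxS y₀ hy₀t) hux hy₀
    have h2 : q (r⁻¹ ⟨x, hxS⟩) = q ⟨x, hxS⟩ := by
      have := hcz r⁻¹ _ _ h1
      rw [MulAut.inv_apply_self] at this
      exact this.symm
    have h3 : D.u (r ⟨x, hxS⟩ * r⁻¹ ⟨x, hxS⟩ : S) = D.u x + D.u x := by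
      rw [Subgroup.coe_mul, D.u_mul (SetLike.coe_mem _) (SetLike.coe_mem _), huZ _ _ h1, huZ _ _ h2]
    rw [show uC ⟨x, hxS⟩ = _ from h3, ← two_mul] at hux
    exact (mul_eq_zero.1 hux).resolve_left hF2
  have hbij : Function.Surjective (fun a => uC (L a)) := by
    refine Finite.injective_iff_surjective.1 fun a b hab => ?_
    have hm : (l a)⁻¹ * l b ∈ D.cover := mul_mem (inv_mem (hl a)) (hl b)
    have hmS : (l a)⁻¹ * l b ∈ S := mul_mem (inv_mem (hlS a)) (hlS b)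
    have h0 : uC ⟨_, hmS⟩ = 0 := by
      have := huC (L a) ⟨_, hmS⟩
      rw [show L a * ⟨_, hmS⟩ = L b from Subtype.ext (mul_inv_cancel_left _ _)] at this
      exact left_eq_add.1 ((show uC (L a) = uC (L b) from hab).trans this)
    have := hinj hm hmS h0
    rw [D.u_mul (inv_mem (hlS a)) (hlS b), D.u_inv (hlS a), hlu, hlu, neg_add_eq_zero] at this
    exact this
  obtain ⟨a₁, ha₁⟩ := hbij 1
  have lift : ∀ {e : G}, D.π e = 1 → e * D.t = D.t * e → ∃ x ∈ D.cover, ∃ (hxS : x ∈ S) (hS : x * e ∈ S),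
      q (r ⟨x * e, hS⟩) = q ⟨x * e, hS⟩ := by
    intro e he het
    have heS := D.mem_S_of_ker he
    obtain ⟨a, ha⟩ := hbij (-uC ⟨e, heS⟩)
    refine ⟨l a, hl a, hlS a, mul_mem (hlS a) heS, ?_⟩
    have hye : (l a * e) * D.t = D.t * (l a * e) :=
      ((show Commute (l a) D.t from hLt a).mul_left (show Commute e D.t from het)).eq
    refine step ⟨_, _⟩ (L a₁) hye (hLt a₁) (hcomm (hl a₁) (hlS a₁) ⟨_, _⟩ hye).symm ?_ ?_
    · show uC (L a * ⟨e, heS⟩) = 0
      rw [huC, show uC (L a) = -uC ⟨e, heS⟩ from ha, neg_add_cancel]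
    · show uC (L a₁) ≠ 0
      rw [show uC (L a₁) = 1 from ha₁]
      exact one_ne_zero
  obtain ⟨x, hx, hxS, hS₁, hy₁⟩ := lift he het
  obtain ⟨x', hx', hxS', hS₂, hy₂⟩ := lift he' het'
  have heS := D.mem_S_of_ker he
  have heS' := D.mem_S_of_ker he'
  have hkey : ⁅x * e, x' * e'⁆ = ⁅e, e'⁆ := by
    rw [D.comm_cl_left hxS heS hS₂, D.comm_cl_right hxS hxS' heS', D.comm_cl_right heS hxS' heS',
      commutatorElement_eq_one_iff_mul_comm.2 (D.X_comm hp5 hx hxS hx' hxS'),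
      commutatorElement_eq_one_iff_mul_comm.2 (((D.mem_cover).1 hx).2 e' he' het'),
      commutatorElement_eq_one_iff_mul_comm.2 (((D.mem_cover).1 hx').2 e he het).symm, one_mul, one_mul,
      one_mul]
  have hmain : ∀ a b a' b' : S, q a = q a' → q b = q b' → ⁅(a : G), (b : G)⁆ = ⁅(a' : G), (b' : G)⁆ := by
    intro a b a' b' ha hb
    have h1 : ((a⁻¹ * a' : S) : G) ∈ D.Z := D.center_iff.1 (QuotientGroup.eq.1 ha)
    have h2 : ((b⁻¹ * b' : S) : G) ∈ D.Z := D.center_iff.1 (QuotientGroup.eq.1 hb)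
    have e1 : ∀ w ∈ S, ⁅((a⁻¹ * a' : S) : G), w⁆ = 1 := fun w hw =>
      commutatorElement_eq_one_iff_mul_comm.2 (((D.mem_Z).1 h1).2 w hw).symm
    have e2 : ∀ w ∈ S, ⁅w, ((b⁻¹ * b' : S) : G)⁆ = 1 := fun w hw =>
      commutatorElement_eq_one_iff_mul_comm.2 (((D.mem_Z).1 h2).2 w hw)
    symm
    calc ⁅(a' : G), (b' : G)⁆ = ⁅(a : G) * ((a⁻¹ * a' : S) : G), (b : G) * ((b⁻¹ * b' : S) : G)⁆ := by simp
      _ = _ := by
        rw [D.comm_cl_left a.2 (SetLike.coe_mem _) (S.mul_mem b.2 (SetLike.coe_mem _)),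
          e1 _ (S.mul_mem b.2 (SetLike.coe_mem _)), mul_one,
          D.comm_cl_right a.2 b.2 (SetLike.coe_mem _), e2 _ a.2, mul_one]
  have hfin := hmain _ _ _ _ hy₁ hy₂
  rw [hkey] at hfin
  have : (⟨⁅e, e'⁆, hmem⟩ : S) = ⁅(⟨x * e, hS₁⟩ : S), ⟨x' * e', hS₂⟩⁆ := Subtype.ext (by
    simpa [commutatorElement_def] using hkey.symm)
  rw [this, map_commutatorElement]
  simpa [commutatorElement_def] using hfin

end CfsgLib.MinParFF.QdPush.Data
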