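import Cfsg.Agent.Eq.Def_LocalEven
import Cfsg.Prelude.Def_LocalEven
import Cfsg.Agent.Eq.Def_PLocal
import Cfsg.Prelude.Def_PLocal
import Cfsg.Agent.Eq.Def_Solvable
import Cfsg.Prelude.Def_Solvable
import Cfsg.Agent.LocalP.Basic
import Cfsg.Agent.Classical.Linear.Simple
import Cfsg.Agent.CommutingSLTwo.Basic

/-!
Pushing up with a natural module as the only noncentral chief factor and a Sylow subgroup of class two
and odd exponent: the natural module splits off, and the group is `V C(t)` for an involution `t`.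
-/

set_option autoImplicit false
set_option linter.style.haveILetI false
set_option linter.unusedSectionVars false

open Cfsg
open scoped MatrixGroups commutatorElement

namespace CfsgLib.MinParFF.QdPush

variable {F : Type} [Field F] [Fintype F] {G : Type*} [Group G] [Finite G]

theorem commutator_sl (h4 : 4 ≤ Fintype.card F) : commutator SL(2, F) = ⊤ :=
  CfsgLib.Classical.Linear.commutator_sl_fin_eq_top 2 fun _ =>
    CfsgLib.Classical.Linear.exists_sq_ne_one_of_four_le (by rw [Nat.card_eq_fintype_card]; exact h4)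

theorem sq_eq_one_of_mem_center {z : SL(2, F)} (hz : z ∈ Subgroup.center SL(2, F)) : z ^ 2 = 1 := by
  obtain ⟨r, hr, hz'⟩ := Matrix.SpecialLinearGroup.mem_center_iff.1 hz
  refine Subtype.ext ?_
  rw [Matrix.SpecialLinearGroup.coe_pow, ← hz', Matrix.SpecialLinearGroup.coe_one, pow_two, ← map_mul,
    ← pow_two]
  rw [Fintype.card_fin] at hr
  rw [hr, map_one]

/-- The standard Sylow `p`-subgroup. -/
def upper (F : Type) [Field F] : Subgroup SL(2, F) where
  carrier := {g | g.1 1 0 = 0 ∧ g.1 0 0 = 1 ∧ g.1 1 1 = 1}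
  one_mem' := by simp
  mul_mem' := by
    intro a b ha hb
    obtain ⟨a1, a2, a3⟩ := ha
    obtain ⟨b1, b2, b3⟩ := hb
    refine ⟨?_, ?_, ?_⟩ <;> simp [Matrix.mul_apply, Fin.sum_univ_two, a1, a2, a3, b1, b2, b3]
  inv_mem' := by
    intro a ha
    obtain ⟨a1, a2, a3⟩ := ha
    refine ⟨?_, ?_, ?_⟩ <;> simp [Matrix.SpecialLinearGroup.coe_inv, Matrix.adjugate_fin_two, a1, a2, a3]

theorem card_upper : Nat.card (upper F) = Fintype.card F := by
  rw [← Nat.card_eq_fintype_card]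
  refine (Nat.card_congr (Equiv.ofBijective (fun a : F => (⟨⟨!![1, a; 0, 1], by simp⟩, by simp,
    by simp, by simp⟩ : upper F)) ⟨fun a b e => ?_, fun g => ⟨g.1.1 0 1, ?_⟩⟩)).symm
  · simpa using congrFun (congrFun (congrArg Subtype.val (congrArg Subtype.val e)) 0) 1
  · obtain ⟨g1, g2, g3⟩ := g.2
    refine Subtype.ext (Subtype.ext ?_)
    ext i j
    fin_cases i <;> fin_cases j <;> simp [g1, g2, g3]

/-- The output of the first step. -/
structure Data (p : ℕ) (F : Type) [Field F] {G : Type*} [Group G] (S : Subgroup G) where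
  π : G →* SL(2, F)
  surj : Function.Surjective π
  V : Subgroup G
  t : G
  ψ : V → Fin 2 → F
  ψ_bij : Function.Bijective ψ
  ψ_mul : ∀ a b : V, ψ (a * b) = ψ a + ψ b
  ψ_conj : ∀ (g : G) (v : V), ∃ w : V, (w : G) = g * v * g⁻¹ ∧ ψ w = (π g).1.mulVec (ψ v)
  V_ker : ∀ v ∈ V, π v = 1
  V_comm : ∀ a ∈ V, ∀ b ∈ V, a * b = b * a
  t_sq : t * t = 1
  π_t : π t = -1
  gen : ∀ g, ∃ v ∈ V, ∃ c, c * t = t * c ∧ g = v * c
  S_iff : ∀ g, g ∈ S ↔ π g ∈ upper F
  S_p : IsPGroup p S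
  class2 : ∀ x ∈ S, ∀ y ∈ S, ∀ z ∈ S, ⁅x, y⁆ * z = z * ⁅x, y⁆
  exp : ∀ x ∈ S, x ^ p = 1
  cent : ∀ g : G, g * t = t * g → (orderOf g).Coprime p → ∀ e, π e = 1 → e * t = t * e → g * e = e * g

variable {p : ℕ} [hp : Fact p.Prime] [CharP F p]

theorem iter_le (N : Subgroup G) [N.Normal] : ∀ k, iterCommutator N ⊤ k ≤ N
  | 0 => le_rfl
  | k + 1 => (Subgroup.commutator_mono (iter_le N k) le_rfl).trans (Subgroup.commutator_le_left N ⊤)

/-- Coprime stabilisation of the chain. -/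
theorem stab (N : Subgroup G) [N.Normal] (hN : IsPGroup p N) {k : ℕ} {g : G}
    (hg : (orderOf g).Coprime p) (P : Subgroup G) (hgP : ∀ x ∈ P, g * x * g⁻¹ ∈ P)
    (hbase : ∀ x ∈ iterCommutator N ⊤ k, x ∈ P → g * x = x * g) :
    ∀ x ∈ N, x ∈ P → g * x = x * g := by
  suffices H : ∀ j ≤ k, ∀ x ∈ iterCommutator N ⊤ (k - j), x ∈ P → g * x = x * g by
    intro x hx hxP
    exact H k le_rfl x (by rw [Nat.sub_self]; exact hx) hxP
  intro j
  induction j with
  | zero => exact fun _ => hbase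
  | succ j ih =>
    intro hj x hx hxP
    set c := g * x * g⁻¹ * x⁻¹ with hc
    have hcl : c ∈ iterCommutator N ⊤ (k - j) := by
      rw [show k - j = (k - (j + 1)) + 1 by omega, iterCommutator, Subgroup.commutator_comm]
      exact Subgroup.commutator_mem_commutator (Subgroup.mem_top g) hx
    have hgc := ih (by omega) c hcl (P.mul_mem (hgP x hxP) (P.inv_mem hxP))
    have hiter : ∀ m : ℕ, g ^ m * x * (g ^ m)⁻¹ = c ^ m * x := by
      intro m
      induction m with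
      | zero => simp
      | succ m ihm =>
        calc g ^ (m + 1) * x * (g ^ (m + 1))⁻¹ = g * (g ^ m * x * (g ^ m)⁻¹) * g⁻¹ := by
              rw [pow_succ']; group
          _ = (g * c ^ m) * x * g⁻¹ := by rw [ihm]; group
          _ = (c ^ m * g) * x * g⁻¹ := by rw [((Commute.pow_right (hgc : Commute g c)) m).eq]
          _ = c ^ (m + 1) * x := by rw [pow_succ, hc]; group
    have h1 := hiter (orderOf g)
    rw [pow_orderOf_eq_one, one_mul, inv_one, mul_one, eq_comm, mul_eq_right] at h1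
    obtain ⟨a, ha⟩ := hN ⟨c, iter_le N _ hcl⟩
    have h2 : c ^ p ^ a = 1 := congrArg Subtype.val ha
    have h3 := pow_gcd_eq_one.2 ⟨h1, h2⟩
    rw [(hg.pow_right a).gcd_eq_one, pow_one, hc, mul_inv_eq_one, mul_inv_eq_iff_eq_mul] at h3
    exact h3

theorem exists_half (hp2 : p ≠ 2) (K : Subgroup G) {x : G} (hx : x ∈ K) (hxp : x ^ p = 1) :
    ∃ y ∈ K, y * y = x ∧ ∀ g, g * x = x * g → g * y = y * g := by
  refine ⟨x ^ ((p + 1) / 2), K.pow_mem hx _, ?_, fun g hg => (Commute.pow_right (show Commute g x from hg) _).eq⟩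
  obtain ⟨m, hm⟩ := hp.1.odd_of_ne_two hp2
  rw [← pow_add, show (p + 1) / 2 + (p + 1) / 2 = p + 1 by omega, pow_succ, hxp, one_mul]

theorem eq_one_of_sq (hp2 : p ≠ 2) {x : G} (hxp : x ^ p = 1) (hx : x * x = 1) : x = 1 := by
  obtain ⟨m, hm⟩ := hp.1.odd_of_ne_two hp2
  rw [hm, pow_succ, pow_mul, pow_two, hx, one_pow, one_mul] at hxp
  exact hxp

/-- The first step. -/
theorem exists_data (hp2 : p ≠ 2) (h4 : 4 ≤ Fintype.card F) (S : Sylow p G) (U W : Subgroup G)
    [W.Normal] (hUQ : U ≤ pCore p G) (hUW : IsChiefFactor U W)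
    (hnat : IsNaturalSL2Module F (U.map (QuotientGroup.mk' W)) (⊤ : Subgroup (G ⧸ W)))
    (hiso : Nonempty (G ⧸ pCore p G ≃* SL(2, F)))
    (hW : ∃ k, iterCommutator W ⊤ k = ⊥) (hQU : ∃ k, iterCommutator (pCore p G) ⊤ k ≤ U)
    (hclass : (S : Subgroup G).lowerCentralSeries 2 = ⊥) (hexp : Monoid.exponent ↥(S : Subgroup G) = p) :
    Nonempty (Data p F (S : Subgroup G)) := by
  classical
  obtain ⟨hWU, hUn, -, hchief⟩ := hUW
  set Q := pCore p G with hQdef
  have hQn : Q.Normal := by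
    show (sSup {N : Subgroup G | N.Normal ∧ IsPGroup p N}).Normal
    exact Subgroup.sSup_normal _ fun N hN => hN.1
  have hQp : IsPGroup p Q := CfsgLib.LocalP.isPGroup_pCore
  have hQS : Q ≤ (S : Subgroup G) := hQp.le_sylow_of_normal S
  have hclass2 : ∀ x ∈ (S : Subgroup G), ∀ y ∈ (S : Subgroup G), ∀ z ∈ (S : Subgroup G),
      ⁅x, y⁆ * z = z * ⁅x, y⁆ := by
    intro x hx y hy z hz
    have h1 : ⁅⁅x, y⁆, z⁆ ∈ ((S : Subgroup G).lowerCentralSeries 2 : Subgroup G) :=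
      Subgroup.commutator_mem_commutator (Subgroup.commutator_mem_commutator hx hy) hz
    rw [hclass, Subgroup.mem_bot] at h1
    exact commutatorElement_eq_one_iff_mul_comm.1 h1
  have hexp' : ∀ x ∈ (S : Subgroup G), x ^ p = 1 := fun x hx => by
    have h1 := Monoid.pow_exponent_eq_one (⟨x, hx⟩ : ↥(S : Subgroup G))
    rw [hexp] at h1
    exact congrArg Subtype.val h1
  have hexpQ : ∀ x ∈ Q, x ^ p = 1 := fun x hx => hexp' x (hQS hx)
  obtain ⟨-, ρ, ψ₀, hρ, -, hact⟩ := hnat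
  let π₁ : G →* SL(2, F) := (ρ.comp Subgroup.topEquiv.symm.toMonoidHom).comp (QuotientGroup.mk' W)
  have hπ₁ : Function.Surjective π₁ :=
    (hρ.comp Subgroup.topEquiv.symm.surjective).comp (QuotientGroup.mk'_surjective W)
  obtain ⟨eQ⟩ := hiso
  -- the kernel is the core
  have hker : π₁.ker = Q := by
    have hle : Q ≤ π₁.ker := by
      haveI : (Q.map π₁).Normal := hQn.map _ hπ₁
      have hp' : IsPGroup p (Q.map π₁) := hQp.map _
      intro x hx
      rw [MonoidHom.mem_ker]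
      have h1 : π₁ x ∈ Subgroup.center SL(2, F) := by
        rcases CfsgLib.Classical.Linear.normal_le_center_or_eq_top (commutator_sl h4) (Q.map π₁) with hc | ht
        · exact hc (Subgroup.mem_map_of_mem _ hx)
        · exfalso
          obtain ⟨a, ha⟩ := hp' ⟨-1, ht ▸ Subgroup.mem_top _⟩
          have h2 : (-1 : SL(2, F)) ^ p ^ a = 1 := congrArg Subtype.val ha
          rw [((hp.1.odd_of_ne_two hp2).pow).neg_one_pow] at h2
          have h3 := congrArg (fun g : SL(2, F) => g.1 0 0) h2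
          simp only [Matrix.SpecialLinearGroup.coe_neg, Matrix.SpecialLinearGroup.coe_one,
            Matrix.neg_apply, Matrix.one_apply_eq] at h3
          exact (Ring.neg_one_ne_one_of_char_ne_two ((ringChar.eq F p).symm ▸ hp2)) h3
      refine eq_one_of_sq (p := p) hp2 ?_ (by rw [← pow_two]; exact sq_eq_one_of_mem_center h1)
      rw [← map_pow, hexpQ x hx, map_one]
    refine (Subgroup.eq_of_le_of_card_ge hle ?_).symm
    have h1 : π₁.ker.index = Q.index := by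
      rw [Subgroup.index_ker, MonoidHom.range_eq_top.2 hπ₁, Subgroup.card_top,
        ← Nat.card_congr eQ.toEquiv, Subgroup.index_eq_card]
    have h2 := Subgroup.card_mul_index π₁.ker
    rw [h1, ← Subgroup.card_mul_index Q] at h2
    exact (Nat.eq_of_mul_eq_mul_right (Nat.pos_of_ne_zero Q.index_ne_zero_of_finite) h2).le
  -- move the Sylow subgroup to the upper triangle
  obtain ⟨γ, hγ⟩ : ∃ γ : SL(2, F), ∀ s ∈ (S : Subgroup G), γ * π₁ s * γ⁻¹ ∈ upper F := by
    have hcard := CfsgLib.CommutingSLTwo.card_SL2 (F := F)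
    obtain ⟨n, -, hn⟩ := FiniteField.card F p
    have hUp : IsPGroup p (upper F) := IsPGroup.of_card (by rw [card_upper, hn])
    obtain ⟨P, hP⟩ := hUp.exists_le_sylow
    have hPU : upper F = P := by
      refine Subgroup.eq_of_le_of_card_ge hP ?_
      obtain ⟨a, ha⟩ := P.isPGroup'.exists_card_eq
      have hdvd : Nat.card (P : Subgroup SL(2, F)) * 1 ∣
          (Fintype.card F ^ 2 - 1) * Fintype.card F := by
        have h5 : Nat.card SL(2, F) = (Fintype.card F ^ 2 - 1) * Fintype.card F := by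
          refine Nat.eq_of_mul_eq_mul_right (show 0 < Fintype.card F - 1 by omega) (hcard.trans ?_)
          rw [mul_assoc, Nat.mul_sub_one, pow_two]
        rw [mul_one, ← h5]
        exact Subgroup.card_subgroup_dvd_card _
      rw [mul_one, ha] at hdvd
      have hcop : Nat.Coprime (p ^ a) (Fintype.card F ^ 2 - 1) := by
        refine Nat.Coprime.pow_left a (hp.1.coprime_iff_not_dvd.2 fun hd => ?_)
        have hd2 : p ∣ Fintype.card F ^ 2 :=
          dvd_pow (by rw [hn]; exact dvd_pow_self p n.2.ne') two_ne_zero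
        have hpos : 1 ≤ Fintype.card F ^ 2 := Nat.one_le_pow _ _ (by omega)
        have := Nat.dvd_sub hd2 hd
        rw [show Fintype.card F ^ 2 - (Fintype.card F ^ 2 - 1) = 1 by omega] at this
        exact hp.1.not_dvd_one this
      rw [ha, card_upper]
      exact Nat.le_of_dvd (by omega) (hcop.dvd_of_dvd_mul_left hdvd)
    obtain ⟨P₁, hP₁⟩ := (S.isPGroup'.map π₁).exists_le_sylow
    obtain ⟨γ, hγ⟩ := MulAction.exists_smul_eq SL(2, F) P₁ P
    refine ⟨γ, fun s hs => ?_⟩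
    rw [hPU, ← hγ, Sylow.coe_subgroup_smul]
    exact Subgroup.smul_mem_pointwise_smul _ (MulAut.conj γ) _ (hP₁ (Subgroup.mem_map_of_mem _ hs))
  let π : G →* SL(2, F) := (MulAut.conj γ).toMonoidHom.comp π₁
  have hπdef : ∀ g, π g = γ * π₁ g * γ⁻¹ := fun g => rfl
  have hπ : Function.Surjective π := (MulAut.conj γ).surjective.comp hπ₁
  have hπker : ∀ g, π g = 1 ↔ g ∈ Q := fun g => by
    rw [← hker, MonoidHom.mem_ker, hπdef, conj_eq_one_iff]
  have hSiff : ∀ g, g ∈ (S : Subgroup G) ↔ π g ∈ upper F := by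
    intro g
    refine ⟨fun hg => hγ g hg, fun hg => ?_⟩
    obtain ⟨n, -, hn⟩ := FiniteField.card F p
    have hUp : IsPGroup p (upper F) := IsPGroup.of_card (by rw [card_upper, hn])
    have hp' : IsPGroup p ((upper F).comap π) := hUp.comap_of_ker_isPGroup π fun x => by
      obtain ⟨a, ha⟩ := hQp ⟨x, (hπker x).1 x.2⟩
      exact ⟨a, Subtype.ext (congrArg Subtype.val ha :)⟩
    have := S.is_maximal' hp' (fun s hs => hγ s hs)
    exact this.le hg
  -- coordinates on `U / W`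
  let φ : U → Fin 2 → F := fun u =>
    γ.1.mulVec (ψ₀ (Additive.ofMul ⟨QuotientGroup.mk' W u, Subgroup.mem_map_of_mem _ u.2⟩))
  have hφmul : ∀ a b : U, φ (a * b) = φ a + φ b := fun a b => by
    simp only [φ]
    rw [← Matrix.mulVec_add, ← map_add, ← ofMul_mul]
    rfl
  have hγinv : ∀ x : Fin 2 → F, (γ⁻¹ : SL(2, F)).1.mulVec (γ.1.mulVec x) = x := fun x => by
    rw [Matrix.mulVec_mulVec, ← Matrix.SpecialLinearGroup.coe_mul, inv_mul_cancel,
      Matrix.SpecialLinearGroup.coe_one, Matrix.one_mulVec]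
  have hφker : ∀ u : U, φ u = 0 ↔ (u : G) ∈ W := by
    intro u
    constructor
    · intro hu
      have h1 : ψ₀ (Additive.ofMul ⟨QuotientGroup.mk' W u, Subgroup.mem_map_of_mem _ u.2⟩) = 0 := by
        rw [← hγinv (ψ₀ _)]
        simp only [φ] at hu
        rw [hu, Matrix.mulVec_zero]
      rw [AddEquiv.map_eq_zero_iff] at h1
      exact (QuotientGroup.eq_one_iff _).1 (congrArg (fun z => ((Additive.toMul z : ↥(U.map (QuotientGroup.mk' W))) : G ⧸ W)) h1)
    · intro hu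
      have h1 : (⟨QuotientGroup.mk' W u, Subgroup.mem_map_of_mem _ u.2⟩ : ↥(U.map (QuotientGroup.mk' W))) = 1 :=
        Subtype.ext ((QuotientGroup.eq_one_iff _).2 hu)
      simp only [φ]
      rw [h1, ofMul_one, map_zero, Matrix.mulVec_zero]
  have hφsurj : Function.Surjective φ := by
    intro x
    obtain ⟨z, hz⟩ := ψ₀.surjective ((γ⁻¹ : SL(2, F)).1.mulVec x)
    obtain ⟨u, hu, huz⟩ := (Additive.toMul z).2
    refine ⟨⟨u, hu⟩, ?_⟩
    have h1 : (⟨QuotientGroup.mk' W u, Subgroup.mem_map_of_mem _ hu⟩ : ↥(U.map (QuotientGroup.mk' W))) =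
        Additive.toMul z := Subtype.ext huz
    simp only [φ]
    rw [h1, ofMul_toMul, hz, Matrix.mulVec_mulVec, ← Matrix.SpecialLinearGroup.coe_mul, mul_inv_cancel,
      Matrix.SpecialLinearGroup.coe_one, Matrix.one_mulVec]
  have hφconj : ∀ (g : G) (u : U), φ ⟨g * u * g⁻¹, hUn.conj_mem u u.2 g⟩ = (π g).1.mulVec (φ u) := by
    intro g u
    obtain ⟨w, hw, hwe⟩ := hact ⟨QuotientGroup.mk' W g, Subgroup.mem_top _⟩
      ⟨QuotientGroup.mk' W u, Subgroup.mem_map_of_mem _ u.2⟩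
    have h1 : w = ⟨QuotientGroup.mk' W (g * u * g⁻¹),
        Subgroup.mem_map_of_mem _ (hUn.conj_mem u u.2 g)⟩ := Subtype.ext (by
      rw [hw]; simp only [map_mul, map_inv])
    rw [h1] at hwe
    simp only [φ]
    rw [hwe, hπdef, Matrix.mulVec_mulVec, Matrix.mulVec_mulVec, ← Matrix.SpecialLinearGroup.coe_mul,
      ← Matrix.SpecialLinearGroup.coe_mul, inv_mul_cancel_right]
    rfl
  -- the involution
  obtain ⟨g₀, hg₀⟩ := hπ (-1)
  obtain ⟨a, ha⟩ := hQp ⟨g₀ * g₀, (hπker _).1 (by rw [map_mul, hg₀, neg_one_mul, neg_neg])⟩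
  set t := g₀ ^ p ^ a with ht
  have htsq : t * t = 1 := by
    rw [ht, ← (Commute.refl g₀).mul_pow]
    exact congrArg Subtype.val ha
  have hπt : π t = -1 := by
    rw [ht, map_pow, hg₀, ((hp.1.odd_of_ne_two hp2).pow).neg_one_pow]
  have htinv : t⁻¹ = t := inv_eq_of_mul_eq_one_right htsq
  have htord : (orderOf t).Coprime p := by
    have hd : orderOf t ∣ 2 := orderOf_dvd_of_pow_eq_one (by rw [pow_two, htsq])
    exact Nat.Coprime.coprime_dvd_left hd ((Nat.coprime_primes Nat.prime_two hp.1).2 (Ne.symm hp2))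
  have htφ : ∀ u : U, φ ⟨t * u * t⁻¹, hUn.conj_mem u u.2 t⟩ = -φ u := fun u => by
    rw [hφconj, hπt, Matrix.SpecialLinearGroup.coe_neg, Matrix.SpecialLinearGroup.coe_one,
      Matrix.neg_mulVec, Matrix.one_mulVec]
  -- fixed points of `t` in `U`
  have hUfix : ∀ u ∈ U, u * t = t * u → u ∈ W := by
    intro u hu hut
    refine (hφker ⟨u, hu⟩).1 ?_
    have h1 := htφ ⟨u, hu⟩
    simp only [← hut, mul_inv_cancel_right] at h1
    funext i
    have h2 := congrFun h1 i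
    rw [Pi.neg_apply, eq_neg_iff_add_eq_zero, ← two_mul] at h2
    exact (mul_eq_zero.1 h2).resolve_left (Ring.two_ne_zero ((ringChar.eq F p).symm ▸ hp2))
  have hWQ : W ≤ Q := hWU.le.trans hUQ
  obtain ⟨kW, hkW⟩ := hW
  have hWcent : ∀ g : G, (orderOf g).Coprime p → ∀ w ∈ W, g * w = w * g := fun g hg w hw =>
    stab W (hQp.to_le hWQ) (k := kW) hg ⊤ (fun _ _ => Subgroup.mem_top _)
      (fun x hx _ => by rw [hkW, Subgroup.mem_bot] at hx; simp [hx]) w hw (Subgroup.mem_top _)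
  -- the centre of `U` covers `U / W`
  set ZU := U ⊓ Subgroup.centralizer (U : Set G) with hZU
  haveI : U.Normal := hUn
  haveI hZn : ZU.Normal := inferInstance
  have hsup : ZU ⊔ W = U := by
    rcases hchief (ZU ⊔ W) inferInstance le_sup_right (sup_le inf_le_left hWU.le) with h1 | h1
    swap
    · exact h1
    exfalso
    obtain ⟨s, hs⟩ := hπ ⟨!![1, 1; 0, 1], by simp⟩
    have hsS : s ∈ (S : Subgroup G) := (hSiff s).2 (by rw [hs]; exact ⟨by simp, by simp, by simp⟩)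
    obtain ⟨u, hu⟩ := hφsurj ![0, 1]
    have hUS : U ≤ (S : Subgroup G) := hUQ.trans hQS
    set x := s * u * s⁻¹ * (u : G)⁻¹ with hx
    have hxU : x ∈ U := U.mul_mem (hUn.conj_mem u u.2 s) (U.inv_mem u.2)
    have hxZ : x ∈ ZU := ⟨hxU, Subgroup.mem_centralizer_iff.2 fun z hz =>
      (hclass2 s hsS u (hUS u.2) z (hUS hz)).symm⟩
    have hxW : x ∈ W := h1 ▸ Subgroup.mem_sup_left hxZ
    have h2 := (hφker ⟨x, hxU⟩).2 hxW
    have h3 : φ ⟨s * u * s⁻¹, hUn.conj_mem u u.2 s⟩ = φ ⟨x, hxU⟩ + φ u := by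
      rw [← hφmul]
      exact congrArg φ (Subtype.ext (by simp [hx]))
    rw [hφconj, h2, zero_add, hs, hu] at h3
    simpa using congrFun h3 0
  let V : Subgroup G :=
    { carrier := {v | v ∈ ZU ∧ t * v * t⁻¹ = v⁻¹}
      one_mem' := ⟨one_mem _, by simp⟩
      mul_mem' := fun {a b} ha hb => ⟨mul_mem ha.1 hb.1, by
        have hab : a * b = b * a := ((Subgroup.mem_centralizer_iff.1 hb.1.2 a ha.1.1))
        calc t * (a * b) * t⁻¹ = (t * a * t⁻¹) * (t * b * t⁻¹) := by group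
          _ = (b * a)⁻¹ := by rw [ha.2, hb.2, mul_inv_rev]
          _ = (a * b)⁻¹ := by rw [hab]⟩
      inv_mem' := fun {a} ha => ⟨inv_mem ha.1, by
        calc t * a⁻¹ * t⁻¹ = (t * a * t⁻¹)⁻¹ := by group
          _ = _ := by rw [ha.2]⟩ }
  have hVU : V ≤ U := fun v hv => hv.1.1
  have hVQ : V ≤ Q := hVU.trans hUQ
  have hVcomm : ∀ a ∈ V, ∀ b ∈ V, a * b = b * a := fun a ha b hb =>
    Subgroup.mem_centralizer_iff.1 hb.1.2 a ha.1.1
  have hdec : ∀ u ∈ U, ∃ v ∈ V, ∃ w ∈ W, u = v * w := by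
    intro u hu
    rw [← hsup] at hu
    obtain ⟨z, hz, w, hw, rfl⟩ := Subgroup.mem_sup_of_normal_right.1 hu
    set z' := t * z * t⁻¹ with hz'
    have hz'Z : z' ∈ ZU := hZn.conj_mem z hz t
    have hzz' : Commute z z' := Subgroup.mem_centralizer_iff.1 hz'Z.2 z hz.1
    have htt : t * z' * t⁻¹ = z := by
      rw [hz', show t * (t * z * t⁻¹) * t⁻¹ = (t * t) * z * (t * t)⁻¹ by group, htsq]
      group
    obtain ⟨a, haZ, haa, hac⟩ := exists_half (p := p) hp2 ZU (ZU.mul_mem hz (ZU.inv_mem hz'Z))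
      (hexpQ _ (hUQ (U.mul_mem hz.1 (U.inv_mem hz'Z.1))))
    have haV : a ∈ V := by
      refine ⟨haZ, ?_⟩
      have h5 : Commute (t * a * t⁻¹) a := Subgroup.mem_centralizer_iff.1 haZ.2 _ (hUn.conj_mem a haZ.1 t)
      refine mul_eq_one_iff_eq_inv.1 (eq_one_of_sq (p := p) hp2
        (hexpQ _ (hUQ (U.mul_mem (hUn.conj_mem a haZ.1 t) haZ.1))) ?_)
      calc t * a * t⁻¹ * a * (t * a * t⁻¹ * a) = (t * a * t⁻¹ * (t * a * t⁻¹)) * (a * a) :=
            h5.symm.mul_mul_mul_comm _ _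
        _ = (t * (a * a) * t⁻¹) * (a * a) := by group
        _ = (t * z * t⁻¹ * (t * z' * t⁻¹)⁻¹) * (z * z'⁻¹) := by rw [haa]; group
        _ = (z' * z⁻¹) * (z * z'⁻¹) := by rw [htt, ← hz']
        _ = 1 := by group
    refine ⟨a, haV, a⁻¹ * z * w, W.mul_mem ?_ hw, by group⟩
    refine hUfix _ (U.mul_mem (U.inv_mem haZ.1) hz.1) ?_
    have h6 : t * (a⁻¹ * z) * t⁻¹ = a⁻¹ * z := by
      have h7 : t * a * t⁻¹ = a⁻¹ := haV.2
      have hca : Commute a z' := Subgroup.mem_centralizer_iff.1 hz'Z.2 a haZ.1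
      calc t * (a⁻¹ * z) * t⁻¹ = (t * a * t⁻¹)⁻¹ * z' := by rw [hz']; group
        _ = a⁻¹ * (a * a * z') := by rw [h7]; group
        _ = a⁻¹ * z := by rw [haa]; group
    exact (mul_inv_eq_iff_eq_mul.1 h6).symm
  have hVW : ∀ v ∈ V, v ∈ W → v = 1 := fun v hv hw => by
    refine eq_one_of_sq (p := p) hp2 (hexpQ v (hVQ hv)) (mul_eq_one_iff_eq_inv.2 ?_)
    rw [← hv.2, hWcent t htord v hw, mul_inv_cancel_right]
  let ψ : V → Fin 2 → F := fun v => φ ⟨v, hVU v.2⟩
  have hψmul : ∀ a b : V, ψ (a * b) = ψ a + ψ b := fun a b => hφmul ⟨a, hVU a.2⟩ ⟨b, hVU b.2⟩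
  have hψinj : Function.Injective ψ := by
    intro a b hab
    have h1 : φ ⟨(a * b⁻¹ : V), hVU (a * b⁻¹ : V).2⟩ = 0 := by
      have h2 := hψmul (a * b⁻¹) b
      rw [inv_mul_cancel_right, hab] at h2
      exact right_eq_add.1 h2
    exact mul_inv_eq_one.1 (Subtype.ext (hVW _ (a * b⁻¹ : V).2 ((hφker _).1 h1)))
  have hψsurj : Function.Surjective ψ := by
    intro x
    obtain ⟨u, hu⟩ := hφsurj x
    obtain ⟨v, hv, w, hw, huv⟩ := hdec u u.2
    refine ⟨⟨v, hv⟩, ?_⟩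
    rw [← hu, show u = (⟨v, hVU hv⟩ : U) * ⟨w, hWU.le hw⟩ from Subtype.ext huv, hφmul,
      (hφker ⟨w, hWU.le hw⟩).2 hw, add_zero]
  have hVC : ∀ c : G, c * t = t * c → ∀ v ∈ V, c * v * c⁻¹ ∈ V := fun c hc v hv =>
    ⟨hZn.conj_mem v hv.1 c, by
      rw [show t * (c * v * c⁻¹) * t⁻¹ = (t * c) * v * (t * c)⁻¹ by group, ← hc,
        show c * t * v * (c * t)⁻¹ = c * (t * v * t⁻¹) * c⁻¹ by group, hv.2]
      group⟩
  have hψC : ∀ (c : G) (hc : c * t = t * c) (v : V),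
      ψ ⟨c * v * c⁻¹, hVC c hc v v.2⟩ = (π c).1.mulVec (ψ v) := fun c hc v => hφconj c ⟨v, hVU v.2⟩
  have hVE : ∀ e : G, π e = 1 → e * t = t * e → ∀ v ∈ V, e * v = v * e := fun e he het v hv => by
    have h1 := hψC e het ⟨v, hv⟩
    rw [he, Matrix.SpecialLinearGroup.coe_one, Matrix.one_mulVec] at h1
    exact mul_inv_eq_iff_eq_mul.1 (congrArg Subtype.val (hψinj h1))
  have hinvV : ∀ v ∈ V, ∀ e : G, π e = 1 → e * t = t * e → t * (v * e) * t⁻¹ = (v * e)⁻¹ → e = 1 := by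
    intro v hv e he het hi
    refine eq_one_of_sq (p := p) hp2 (hexpQ e ((hπker e).1 he)) ?_
    have h1 : t * (v * e) * t⁻¹ = v⁻¹ * e := by
      rw [show t * (v * e) * t⁻¹ = (t * v * t⁻¹) * (t * e * t⁻¹) by group, hv.2, ← het, mul_inv_cancel_right]
    have hc : Commute e v := hVE e he het v hv
    rw [h1, mul_inv_rev, ← hc.inv_right.eq] at hi
    exact mul_eq_one_iff_eq_inv.2 (mul_right_cancel hi)
  obtain ⟨kQ, hkQ⟩ := hQU
  have hQdec : ∀ j ≤ kQ, ∀ x ∈ iterCommutator Q ⊤ (kQ - j), ∃ v ∈ V, (v⁻¹ * x) * t = t * (v⁻¹ * x) := by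
    intro j
    induction j with
    | zero =>
      intro _ x hx
      obtain ⟨v, hv, w, hw, rfl⟩ := hdec x (hkQ hx)
      exact ⟨v, hv, by rw [inv_mul_cancel_left]; exact (hWcent t htord w hw).symm⟩
    | succ j ih =>
      intro hj x hx
      set c := t * x * t⁻¹ * x⁻¹ with hc
      have hxQ : x ∈ Q := iter_le Q _ hx
      have hcl : c ∈ iterCommutator Q ⊤ (kQ - j) := by
        rw [show kQ - j = (kQ - (j + 1)) + 1 by omega, iterCommutator, Subgroup.commutator_comm]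
        exact Subgroup.commutator_mem_commutator (Subgroup.mem_top t) hx
      obtain ⟨v, hv, hve⟩ := ih (by omega) c hcl
      have hci : t * c * t⁻¹ = c⁻¹ := by
        rw [hc, show t * (t * x * t⁻¹ * x⁻¹) * t⁻¹ = (t * t) * x * (t * t)⁻¹ * (t * x * t⁻¹)⁻¹ by group,
          htsq]
        group
      have hcv : v⁻¹ * c = 1 := hinvV v hv _ (by
        rw [map_mul, map_inv, (hπker v).2 (hVQ hv), (hπker c).2 (iter_le Q _ hcl), inv_one, one_mul])
        hve (by rw [mul_inv_cancel_left]; exact hci)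
      obtain ⟨w, hw, hww, -⟩ := exists_half (p := p) hp2 V hv (hexpQ v (hVQ hv))
      refine ⟨w⁻¹, V.inv_mem hw, ?_⟩
      rw [inv_inv]
      refine (mul_inv_eq_iff_eq_mul.1 ?_).symm
      calc t * (w * x) * t⁻¹ = (t * w * t⁻¹) * (c * x) := by rw [hc]; group
        _ = w⁻¹ * (v * x) := by rw [hw.2, ← inv_mul_eq_one.1 hcv]
        _ = w * x := by rw [← hww]; group
  have hgen : ∀ g, ∃ v ∈ V, ∃ c, c * t = t * c ∧ g = v * c := by
    intro g
    set q := g * t * g⁻¹ * t⁻¹ with hq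
    have hqQ : q ∈ Q := (hπker q).1 (by
      rw [hq, map_mul, map_mul, map_mul, map_inv, map_inv, hπt]
      simp)
    obtain ⟨v, hv, hve⟩ := hQdec kQ le_rfl q (by rw [Nat.sub_self]; exact hqQ)
    have hqi : t * q * t⁻¹ = q⁻¹ := by
      rw [hq]
      simp only [mul_inv_rev, inv_inv, htinv, mul_assoc, htsq, mul_one]
    have hvq : v⁻¹ * q = 1 := hinvV v hv _ (by
      rw [map_mul, map_inv, (hπker v).2 (hVQ hv), (hπker q).2 hqQ, inv_one, one_mul])
      hve (by rw [mul_inv_cancel_left]; exact hqi)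
    obtain ⟨w, hw, hww, -⟩ := exists_half (p := p) hp2 V hv (hexpQ v (hVQ hv))
    refine ⟨w, hw, w⁻¹ * g, ?_, (mul_inv_cancel_left w g).symm⟩
    have hgt : g * t = v * t * g := by rw [inv_mul_eq_one.1 hvq, hq]; group
    have hwt : w * t = t * w⁻¹ := by
      have hw2 : t * w * t⁻¹ = w⁻¹ := hw.2
      rw [← hw2, ← mul_assoc, ← mul_assoc, htsq, one_mul, htinv]
    calc w⁻¹ * g * t = w⁻¹ * (g * t) := mul_assoc _ _ _
      _ = w * t * g := by rw [hgt, ← hww]; group
      _ = t * (w⁻¹ * g) := by rw [hwt, mul_assoc]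
  refine ⟨⟨π, hπ, V, t, ψ, ⟨hψinj, hψsurj⟩, hψmul, fun g v => ?_, fun v hv => (hπker v).2 (hVQ hv),
    hVcomm, htsq, hπt, hgen, hSiff, S.isPGroup', hclass2, hexp', fun g hgt hg e he het => ?_⟩⟩
  · obtain ⟨v₀, hv₀, c, hc, rfl⟩ := hgen g
    have hcv := hVC c hc v v.2
    have h1 : v₀ * c * v * (v₀ * c)⁻¹ = c * v * c⁻¹ := by
      rw [show v₀ * c * v * (v₀ * c)⁻¹ = v₀ * (c * v * c⁻¹) * v₀⁻¹ by group, hVcomm v₀ hv₀ _ hcv,
        mul_inv_cancel_right]
    exact ⟨⟨c * v * c⁻¹, hcv⟩, h1.symm, by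
      rw [hψC c hc v, map_mul, (hπker v₀).2 (hVQ hv₀), one_mul]⟩
  · haveI := hQn
    refine stab Q hQp (k := kQ) hg (Subgroup.centralizer {t}) (fun x hx => ?_) (fun x hx hxt => ?_) e
      ((hπker e).1 he) (Subgroup.mem_centralizer_singleton_iff.2 het)
    · have hgC : g ∈ Subgroup.centralizer {t} := Subgroup.mem_centralizer_singleton_iff.2 hgt
      exact mul_mem (mul_mem hgC hx) (inv_mem hgC)
    · exact hWcent g hg x (hUfix x (hkQ hx) (Subgroup.mem_centralizer_singleton_iff.1 hxt))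

end CfsgLib.MinParFF.QdPush
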